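import Cfsg.Agent.H19.OrthTensor.Vectors
import Cfsg.Agent.H5.EichlerGroup
import Mathlib.Algebra.CharP.Lemmas

/-!
Unipotent elements and involutions of orthogonal spaces in which every `e⊥/e` is anisotropic.
-/

set_option autoImplicit false
set_option linter.unusedSectionVars false

namespace Cfsg.Agent.H19.OrthTensor

open QuadraticMap hiding sq
open Cfsg.Agent.H5 Module

variable {F V : Type*} [Field F] [Finite F] [AddCommGroup V] [Module F V] [Finite V]
  [FiniteDimensional F V] {Q : QuadraticForm F V}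

instance finite_orth : Finite (orth Q) :=
  haveI : Finite (V ≃ₗ[F] V) :=
    Finite.of_injective (fun e : V ≃ₗ[F] V => (e : V → V)) DFunLike.coe_injective
  inferInstance

/-- Every complement of a hyperbolic pair is anisotropic. -/
def LineAniso (Q : QuadraticForm F V) : Prop :=
  ∀ e h x : V, HypPair Q e h → x ∈ pperp Q e h → Q x = 0 → x = 0

theorem lineAniso_three (hQ : (polarBilin Q).Nondegenerate) (h3 : finrank F V = 3) : LineAniso Q := by
  intro e h x hh hx hx0
  by_contra hne
  obtain ⟨w, hw, hQw⟩ := exists_anisotropic (hh.inf_perp hQ)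
    (by have := hh.finrank_pperp hQ; omega)
  have hd : finrank F (pperp Q e h) = 1 := by have := hh.finrank_pperp hQ; omega
  obtain ⟨c, hc⟩ := (finrank_eq_one_iff_of_nonzero' (⟨x, hx⟩ : pperp Q e h)
    (fun h0 => hne (congrArg Subtype.val h0))).1 hd ⟨w, hw⟩
  have hcx : c • x = w := congrArg Subtype.val hc
  rw [← hcx, QuadraticMap.map_smul, hx0, smul_zero] at hQw
  exact hQw rfl

theorem dick_mul_odd (hQ : (polarBilin Q).Nondegenerate) (h2 : (2 : F) ≠ 0) (g k : orth Q) :
    dick (g * k) = dick g * dick k :=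
  dick_mul hQ (by rw [reflGroup_eq_top hQ (Or.inl (card_ne_two h2))]; trivial) k

theorem dick_omega (hQ : (polarBilin Q).Nondegenerate) (h2 : (2 : F) ≠ 0) {g : orth Q}
    (hg : g ∈ commutator (orth Q)) : dick g = 1 :=
  ((mem_commutator_iff hQ (Or.inl (card_ne_two h2))).1 hg).1

theorem even_rk {g : orth Q} (hg : dick g = 1) : Even (rk g) := by
  by_contra h
  rw [dick, (Nat.not_even_iff_odd.1 h).neg_one_pow] at hg
  exact absurd hg (by decide)

theorem rk_negOne (h2 : (2 : F) ≠ 0) : rk (negOne Q) = finrank F V := by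
  have h : resid (negOne Q) = ⊤ := by
    refine Submodule.eq_top_iff'.2 fun x => ⟨(-(2 : F))⁻¹ • x, ?_⟩
    rw [dLin_apply, negOne_apply]
    calc -((-(2 : F))⁻¹ • x) - (-(2 : F))⁻¹ • x = (-(2 : F) * (-(2 : F))⁻¹) • x := by module
      _ = x := by rw [mul_inv_cancel₀ (neg_ne_zero.2 h2), one_smul]
  rw [rk, h, finrank_top]

/-- A unipotent isometry of an anisotropic space is trivial. -/
theorem eq_one_of_unipotent {W : Type*} [AddCommGroup W] [Module F W] {q : QuadraticForm F W}
    (h2 : (2 : F) ≠ 0) (hq : ∀ x, q x = 0 → x = 0) {ρ : Module.End F W}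
    (hiso : ∀ x y, polar q (ρ x) (ρ y) = polar q x y) {N : ℕ} (hN : (ρ - 1) ^ N = 0) : ρ = 1 := by
  by_contra hne
  obtain ⟨x, hx⟩ : ∃ x, ρ x ≠ x := by
    by_contra! hall
    exact hne (LinearMap.ext hall)
  obtain ⟨n, hn1, hn2⟩ := exists_last_iterate_zero (ρ - 1) hN (v := (ρ - 1) x)
    (by rw [LinearMap.sub_apply, Module.End.one_apply]; exact sub_ne_zero.2 hx)
  set e := ((ρ - 1) ^ n) ((ρ - 1) x)
  have he : ρ e = e := by
    rwa [LinearMap.sub_apply, Module.End.one_apply, sub_eq_zero] at hn2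
  refine hn1 (hq e ?_)
  set z := ((ρ - 1) ^ n) x
  have hz : e = ρ z - z := by
    show ((ρ - 1) ^ n) ((ρ - 1) x) = (ρ - 1) (((ρ - 1) ^ n) x)
    rw [← Module.End.mul_apply, ← Module.End.mul_apply, ← pow_succ, pow_succ']
  refine mul_left_cancel₀ h2 ?_
  rw [mul_zero, ← polar_self']
  conv_lhs => arg 2; rw [hz]
  rw [polar_sub_left]
  conv_lhs => arg 1; arg 3; rw [← he]
  rw [hiso, sub_self]
where
  exists_last_iterate_zero {W : Type _} [AddCommGroup W] [Module F W] (D : Module.End F W) {N : ℕ}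
      (hN : D ^ N = 0) {v : W} (hv : v ≠ 0) : ∃ n, (D ^ n) v ≠ 0 ∧ D ((D ^ n) v) = 0 := by
    classical
    have hex : ∃ n, (D ^ n) v = 0 := ⟨N, by rw [hN]; rfl⟩
    obtain ⟨n, hn⟩ : ∃ n, Nat.find hex = n + 1 := by
      refine ⟨Nat.find hex - 1, (Nat.succ_pred_eq_of_pos (Nat.pos_of_ne_zero fun h0 => hv ?_)).symm⟩
      have := Nat.find_spec hex
      rwa [h0, pow_zero, Module.End.one_apply] at this
    refine ⟨n, Nat.find_min hex (by omega), ?_⟩
    have := Nat.find_spec hex
    rwa [hn, pow_succ', Module.End.mul_apply] at this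

/-- An element of order a power of the characteristic is a root element. -/
theorem exists_eich_of_unipotent {p : ℕ} [Fact p.Prime] [CharP F p]
    (hQ : (polarBilin Q).Nondegenerate) (h2 : (2 : F) ≠ 0) (hA : LineAniso Q) {k : orth Q}
    (hk : k ≠ 1) {n : ℕ} (hp : k ^ p ^ n = 1) :
    ∃ e η, e ≠ 0 ∧ Q e = 0 ∧ polar Q e η = 0 ∧ Q η ≠ 0 ∧ k = eich Q e η := by
  let φ : orth Q →* Module.End F V :=
    { toFun := fun g => ((g : V ≃ₗ[F] V) : V →ₗ[F] V)
      map_one' := rfl
      map_mul' := fun _ _ => rfl }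
  obtain ⟨x, hx⟩ : ∃ x, (k : V ≃ₗ[F] V) x ≠ x := by
    by_contra! hall
    exact hk (orth_ext hall)
  have : Nontrivial V := nontrivial_of_ne _ _ hx
  have : CharP (Module.End F V) p :=
    charP_of_injective_algebraMap (algebraMap F (Module.End F V)).injective p
  have hnil : (φ k - 1) ^ p ^ n = 0 := by
    rw [sub_pow_char_pow_of_commute p n (Commute.one_right _), one_pow, ← map_pow, hp, map_one, sub_self]
  obtain ⟨j, hj1, hj2⟩ := eq_one_of_unipotent.exists_last_iterate_zero (φ k - 1) hnil
    (v := (φ k - 1) x) (by rw [LinearMap.sub_apply, Module.End.one_apply]; exact sub_ne_zero.2 hx)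
  set e := ((φ k - 1) ^ j) ((φ k - 1) x)
  set z := ((φ k - 1) ^ j) x
  have hke : (k : V ≃ₗ[F] V) e = e := by
    rw [LinearMap.sub_apply, Module.End.one_apply, sub_eq_zero] at hj2
    exact hj2
  have hz : e = (k : V ≃ₗ[F] V) z - z := by
    show ((φ k - 1) ^ j) ((φ k - 1) x) = (φ k - 1) (((φ k - 1) ^ j) x)
    rw [← Module.End.mul_apply, ← Module.End.mul_apply, ← pow_succ, pow_succ']
  have he : Q e = 0 := by
    refine mul_left_cancel₀ h2 ?_
    rw [mul_zero, ← polar_self']
    conv_lhs => arg 2; rw [hz]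
    rw [polar_sub_left]
    conv_lhs => arg 1; arg 3; rw [← hke]
    rw [orth_polar, sub_self]
  obtain ⟨h, hh⟩ := exists_hypPair hQ hj1 he
  set W := pperp Q e h
  have hkW : ∀ w : W, polar Q e ((k : V ≃ₗ[F] V) w) = 0 := fun w => by
    conv_lhs => arg 2; rw [← hke]
    rw [orth_polar]
    exact (mem_pperp.1 w.2).1
  let ρ : Module.End F W :=
    { toFun := fun w => ⟨(k : V ≃ₗ[F] V) w - polar Q h ((k : V ≃ₗ[F] V) w) • e, by
        rw [mem_pperp, polar_sub_right, polar_sub_right, polar_smul_right, polar_smul_right, polar_self', he,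
          hkW, polar_comm (⇑Q) h e, hh.pair]
        simp⟩
      map_add' := fun a b => Subtype.ext (by simp [polar_add_right, add_smul]; abel)
      map_smul' := fun c a => Subtype.ext (by simp [polar_smul_right, smul_sub, smul_smul]) }
  have hρ : ∀ w : W, ((ρ w : W) : V) = (k : V ≃ₗ[F] V) w - polar Q h ((k : V ≃ₗ[F] V) w) • e := fun w => rfl
  have hpow : ∀ (m : ℕ) (w : W), ∃ c : F,
      (((ρ - 1) ^ m) w : V) = ((φ k - 1) ^ m) (w : V) + c • e := by
    intro m w
    induction m with
    | zero => exact ⟨0, by simp⟩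
    | succ m ih =>
      obtain ⟨c, hc⟩ := ih
      refine ⟨-polar Q h ((k : V ≃ₗ[F] V) (((ρ - 1) ^ m) w : W)), ?_⟩
      rw [pow_succ', pow_succ', Module.End.mul_apply, Module.End.mul_apply, LinearMap.sub_apply,
        Module.End.one_apply, Submodule.coe_sub, hρ, LinearMap.sub_apply, Module.End.one_apply]
      have e1 : φ k (((φ k - 1) ^ m) (w : V)) =
          (k : V ≃ₗ[F] V) (((ρ - 1) ^ m) w : V) - c • e := by
        rw [hc, map_add, map_smul, hke, add_sub_cancel_right]; rfl
      rw [e1, eq_sub_of_add_eq hc.symm, neg_smul]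
      abel
  have hρ1 : ρ = 1 := by
    refine eq_one_of_unipotent (q := Q.restrict W) h2
      (fun w hw => Subtype.ext (hA e h w hh w.2 hw)) (fun a b => ?_) (N := p ^ n) ?_
    · show polar Q ((ρ a : W) : V) ((ρ b : W) : V) = polar Q (a : V) (b : V)
      rw [hρ, hρ]
      simp [polar_sub_left, polar_sub_right, polar_smul_left, polar_smul_right, polar_self', he, hkW,
        polar_comm (⇑Q) _ e, orth_polar]
    · refine LinearMap.ext fun w => Subtype.ext ?_
      obtain ⟨c, hc⟩ := hpow (p ^ n) w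
      rw [hnil, LinearMap.zero_apply, zero_add] at hc
      rw [LinearMap.zero_apply, Submodule.coe_zero, hc]
      have h1 := (mem_pperp.1 (((ρ - 1) ^ p ^ n) w).2).2
      rw [hc, polar_smul_right, polar_comm (⇑Q) h e, hh.pair, smul_eq_mul, mul_one] at h1
      rw [h1, zero_smul]
  set y := (k : V ≃ₗ[F] V) h
  set η := y - polar Q h y • e - h
  have hey : polar Q e y = 1 := by
    conv_lhs => arg 2; rw [← hke]
    rw [orth_polar, hh.pair]
  have hηW : η ∈ W := by
    have := hh.decomp y
    rwa [hey, one_smul] at this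
  obtain ⟨heη, hhη⟩ := mem_pperp.1 hηW
  have hyη : y = polar Q h y • e + η + h := by simp only [η]; abel
  have hQη : polar Q h y = -Q η := by
    have h1 : Q y = 0 := by rw [orth_map, hh.right]
    rw [hyη, QuadraticMap.map_add (⇑Q), QuadraticMap.map_add (⇑Q), QuadraticMap.map_smul, he, hh.right,
      polar_add_left, polar_smul_left, polar_smul_left, hh.pair, heη, polar_comm (⇑Q) η h, hhη] at h1
    simp at h1
    linear_combination h1
  have hkeq : k = eich Q e η := by
    refine orth_ext fun v => ?_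
    have hv := hh.decomp v
    set w := v - polar Q h v • e - polar Q e v • h
    have hkw : ∀ w : W, (k : V ≃ₗ[F] V) w = w - polar Q η w • e := by
      intro w
      have h1 := congrArg Subtype.val (LinearMap.congr_fun hρ1 w)
      rw [hρ, Module.End.one_apply] at h1
      obtain ⟨hew, hhw⟩ := mem_pperp.1 w.2
      have h3 : (k : V ≃ₗ[F] V) w = w + polar Q h ((k : V ≃ₗ[F] V) w) • e := by
        linear_combination (norm := module) h1
      have h4 : polar Q ((k : V ≃ₗ[F] V) w) y = 0 := by
        rw [orth_polar, polar_comm]; exact hhw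
      rw [h3, hyη, polar_add_left, polar_smul_left, polar_add_right, polar_add_right, polar_add_right,
        polar_add_right, polar_smul_right, polar_smul_right, polar_comm (⇑Q) (w : V) e, hew, heη,
        polar_comm (⇑Q) (w : V) h, hhw, polar_self', he, hh.pair] at h4
      simp only [smul_zero, mul_zero, zero_add, add_zero, smul_eq_mul, mul_one] at h4
      conv_lhs => rw [h3]
      rw [eq_neg_of_add_eq_zero_right h4, polar_comm (⇑Q) η]
      module
    have key : ∀ (α β : F) (u : W), (k : V ≃ₗ[F] V) (α • e + β • h + u) =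
        (eich Q e η : V ≃ₗ[F] V) (α • e + β • h + u) := by
      intro α β u
      rw [map_add, map_add, map_smul, map_smul, hke, hkw u, show (k : V ≃ₗ[F] V) h = y from rfl, hyη, hQη,
        eich_apply he heη, polar_add_right, polar_add_right, polar_add_right, polar_add_right,
        polar_smul_right, polar_smul_right, polar_smul_right, polar_smul_right, polar_self', he, hh.pair,
        polar_comm (⇑Q) η e, heη, polar_comm (⇑Q) η h, hhη, (mem_pperp.1 u.2).1]
      simp only [smul_zero, mul_zero, zero_add, add_zero, smul_eq_mul, mul_one]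
      module
    have hv' : v = polar Q h v • e + polar Q e v • h + w := by simp only [w]; abel
    rw [hv']
    exact key _ _ ⟨w, hv⟩
  refine ⟨e, η, hj1, he, heη, fun h0 => hk ?_, hkeq⟩
  rw [hkeq, hA e h η hh hηW h0, eich_zero]

/-- The only singular vectors fixed by a root element lie on its line. -/
theorem mem_span_of_eich_fixed (hQ : (polarBilin Q).Nondegenerate) (h2 : (2 : F) ≠ 0)
    (hA : LineAniso Q) {e η x : V} (he0 : e ≠ 0) (he : Q e = 0) (hη : polar Q e η = 0)
    (hQη : Q η ≠ 0) (hx : Q x = 0) (hfix : (eich Q e η : V ≃ₗ[F] V) x = x) :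
    x ∈ Submodule.span F {e} := by
  obtain ⟨h, hh⟩ := exists_hypPair hQ he0 he
  rw [eich_apply he hη] at hfix
  have h1 := congrArg (polar Q η) hfix
  rw [polar_sub_right, polar_sub_right, polar_add_right, polar_smul_right, polar_smul_right,
    polar_smul_right, polar_self', polar_comm (⇑Q) η e, hη] at h1
  simp only [smul_eq_mul, mul_zero, sub_zero, add_eq_left] at h1
  have hex : polar Q e x = 0 := (mul_eq_zero.1 h1).resolve_right (mul_ne_zero h2 hQη)
  have hw := hh.decomp x
  rw [hex, zero_smul, sub_zero] at hw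
  have h0 : Q (x - polar Q h x • e) = 0 := by
    rw [map_sub_smul, hx, he, polar_comm (⇑Q) x e, hex]; ring
  have := hA e h _ hh hw h0
  rw [sub_eq_zero] at this
  rw [this]
  exact Submodule.smul_mem _ _ (Submodule.mem_span_singleton_self e)

theorem eich_pow_char {p : ℕ} [CharP F p] {e a : V} (he : Q e = 0) (ha : polar Q e a = 0) :
    eich Q e a ^ p = 1 := by
  have h : ∀ m : ℕ, eich Q e a ^ m = eich Q e ((m : F) • a) := by
    intro m
    induction m with
    | zero => rw [pow_zero, Nat.cast_zero, zero_smul, eich_zero]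
    | succ m ih =>
      rw [pow_succ, ih, eich_mul he (by rw [polar_smul_right, ha, smul_zero]) ha, Nat.cast_succ,
        add_smul, one_smul]
  rw [h, CharP.cast_eq_zero, zero_smul, eich_zero]

theorem eich_ne_one (h2 : (2 : F) ≠ 0) {e a : V} (he0 : e ≠ 0) (he : Q e = 0) (ha : polar Q e a = 0)
    (hQ : (polarBilin Q).Nondegenerate) (hQa : Q a ≠ 0) : eich Q e a ≠ 1 := by
  intro h1
  obtain ⟨h, hh⟩ := exists_hypPair hQ he0 he
  have h3 : (eich Q e a : V ≃ₗ[F] V) h = h := by rw [h1]; rfl
  rw [eich_apply he ha, hh.pair, one_smul, mul_one] at h3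
  have h4 := congrArg (polar Q a) h3
  rw [polar_sub_right, polar_sub_right, polar_add_right, polar_smul_right, polar_smul_right, polar_self',
    polar_comm (⇑Q) a e, ha] at h4
  simp [h2, hQa] at h4

/-- In dimension three a rotation other than the identity fixes exactly one line. -/
theorem finrank_fixer_three (h3 : finrank F V = 3) {g : orth Q}
    (hg : dick g = 1) (hg1 : g ≠ 1) : finrank F (fixer g) = 1 := by
  have h1 := rk_add_finrank_fixer g
  obtain ⟨m, hm⟩ := even_rk hg
  have h0 : rk g ≠ 0 := fun h0 => hg1 (eq_one_of_rk_eq_zero h0)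
  omega

/-- In dimension three a rotation of order two is some `tvec`. -/
theorem exists_tvec_eq (hQ : (polarBilin Q).Nondegenerate) (h2 : (2 : F) ≠ 0) (h3 : finrank F V = 3)
    {g : orth Q} (hg : dick g = 1) (hgg : g * g = 1) (hg1 : g ≠ 1) :
    ∃ a, Q a ≠ 0 ∧ g = tvec Q a := by
  have hf := finrank_fixer_three h3 hg hg1
  obtain ⟨⟨a, haf⟩, ha0, hspan⟩ := finrank_eq_one_iff'.1 hf
  have hfix : (g : V ≃ₗ[F] V) a = a := mem_fixer.1 haf
  have hperp : ∀ x ∈ negSp g, polar Q a x = 0 := fun x hx => fixer_perp_negSp h2 haf hx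
  have hQa : Q a ≠ 0 := by
    intro h0
    refine ha0 (Subtype.ext (hQ.1 a fun y => ?_))
    obtain ⟨u, hu, w, hw, rfl⟩ := Submodule.mem_sup.1
      ((isCompl_eigen h2 hgg).sup_eq_top.ge (Submodule.mem_top (x := y)))
    obtain ⟨c, hc⟩ := hspan ⟨u, hu⟩
    have hc' : c • a = u := congrArg Subtype.val hc
    rw [polarBilin_apply_apply, polar_add_right, hperp w hw, ← hc', polar_smul_right, polar_self', h0]
    simp
  refine ⟨a, hQa, orth_ext fun y => ?_⟩
  obtain ⟨u, hu, w, hw, rfl⟩ := Submodule.mem_sup.1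
    ((isCompl_eigen h2 hgg).sup_eq_top.ge (Submodule.mem_top (x := y)))
  obtain ⟨c, hc⟩ := hspan ⟨u, hu⟩
  have hc' : c • a = u := congrArg Subtype.val hc
  rw [map_add, map_add, mem_negSp.1 hw, tvec_perp (hperp w hw), ← hc', map_smul, map_smul, hfix,
    tvec_self hQa]

/-- In dimension three the root group of a line is one-parameter. -/
theorem exists_eich_param (hQ : (polarBilin Q).Nondegenerate) (h3 : finrank F V = 3) {e : V}
    (he0 : e ≠ 0) (he : Q e = 0) :
    ∃ a₀, ∀ a, polar Q e a = 0 → ∃ σ : F, eich Q e a = eich Q e (σ • a₀) := by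
  obtain ⟨h, hh⟩ := exists_hypPair hQ he0 he
  have hd : finrank F (pperp Q e h) = 1 := by have := hh.finrank_pperp hQ; omega
  obtain ⟨⟨a₀, ha₀⟩, -, hspan⟩ := finrank_eq_one_iff'.1 hd
  refine ⟨a₀, fun a ha => ?_⟩
  have hw := hh.decomp a
  rw [ha, zero_smul, sub_zero] at hw
  obtain ⟨σ, hσ⟩ := hspan ⟨_, hw⟩
  have hσ' : σ • a₀ = a - polar Q h a • e := congrArg Subtype.val hσ
  refine ⟨σ, ?_⟩
  conv_lhs => rw [← sub_add_cancel a (polar Q h a • e), ← hσ']
  exact eich_add_smul he (by rw [polar_smul_right, (mem_pperp.1 ha₀).1, smul_zero]) _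

end Cfsg.Agent.H19.OrthTensor
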