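import Cfsg.Agent.H20.Generation
import Mathlib.GroupTheory.Transfer
import Mathlib.GroupTheory.Nilpotent
import Mathlib.GroupTheory.Sylow

/-!
Group theory for the small tensor product: Sylow subgroups through the normaliser condition,
generation by coprime centralisers and a counting lemma for involutions.
-/

set_option autoImplicit false

namespace Cfsg.Agent.H19.OrthTensor

open Subgroup

variable {G : Type*} [Group G] [Finite G] {p : ℕ} [Fact p.Prime]

/-- A coprimely acted-on subgroup lies in `H` when the centralisers of the acting elements do. -/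
theorem le_of_coprime_centralizers {W N H : Subgroup G} (hWc : ∀ a ∈ W, ∀ b ∈ W, a * b = b * a)
    (hWp : IsPGroup p W) (hW : ¬ IsCyclic W) (hWN : ∀ w ∈ W, ∀ y ∈ N, w * y * w⁻¹ ∈ N)
    (hN : ¬ p ∣ Nat.card N) (hH : ∀ w ∈ W, w ≠ 1 → ∀ y ∈ N, w * y = y * w → y ∈ H) : N ≤ H := by
  haveI : IsMulCommutative W := ⟨⟨fun a b => Subtype.ext (hWc a a.2 b b.2)⟩⟩
  refine H20.le_of_centralizers_le hW (fun w hw => ?_) ?_ fun w hw hw1 y hy => ?_
  · rw [Subgroup.mem_normalizer_iff]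
    refine fun y => ⟨fun hy => hWN w hw y hy, fun hy => ?_⟩
    have := hWN w⁻¹ (inv_mem hw) _ hy
    simpa [mul_assoc] using this
  · obtain ⟨n, hn⟩ := IsPGroup.iff_card.1 hWp
    rw [hn]
    exact Nat.Coprime.pow_left n (((Fact.out : p.Prime).coprime_iff_not_dvd).2 hN)
  · exact hH w hw hw1 y hy.1 (Subgroup.mem_centralizer_iff.1 hy.2 w rfl)

/-- A `p`-subgroup equal to its own `p`-normaliser is a Sylow subgroup. -/
theorem exists_sylow_eq {X U : Subgroup G} (hUX : U ≤ X) (hU : IsPGroup p U)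
    (hn : ∀ n ∈ X, (∃ k : ℕ, n ^ p ^ k = 1) → (∀ u, u ∈ U ↔ n * u * n⁻¹ ∈ U) → n ∈ U) :
    ∃ P : Sylow p X, (P : Subgroup X) = U.subgroupOf X := by
  have hU' : IsPGroup p (U.subgroupOf X) := hU.of_equiv (Subgroup.subgroupOfEquivOfLe hUX).symm
  obtain ⟨P, hP⟩ := hU'.exists_le_sylow
  refine ⟨P, le_antisymm ?_ hP⟩
  by_contra hle
  haveI : Group.IsNilpotent (P : Subgroup X) := P.2.isNilpotent
  have hlt : (U.subgroupOf X).subgroupOf (P : Subgroup X) < ⊤ := by
    refine lt_top_iff_ne_top.2 fun h => hle ?_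
    rwa [Subgroup.subgroupOf_eq_top] at h
  obtain ⟨n, hn1, hn2⟩ := SetLike.exists_of_lt
    (Group.normalizerCondition_of_isNilpotent (G := (P : Subgroup X)) _ hlt)
  apply hn2
  simp only [Subgroup.mem_subgroupOf]
  refine hn _ (n : X).2 ?_ fun u => ?_
  · obtain ⟨k, hk⟩ := P.2 n
    exact ⟨k, by simpa using congrArg (fun x : (P : Subgroup X) => ((x : X) : G)) hk⟩
  · rw [Subgroup.mem_normalizer_iff] at hn1
    constructor
    · intro hu
      have h := (hn1 ⟨⟨u, hUX hu⟩, hP (by simpa [Subgroup.mem_subgroupOf] using hu)⟩).1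
        (by simpa [Subgroup.mem_subgroupOf] using hu)
      simpa [Subgroup.mem_subgroupOf] using h
    · intro hu
      have hu' : (⟨(((n : X) : G) * u * ((n : X) : G)⁻¹), hUX hu⟩ : X) ∈ (P : Subgroup X) :=
        hP (by simpa [Subgroup.mem_subgroupOf] using hu)
      have h := (hn1 (n⁻¹ * ⟨_, hu'⟩ * n)).2 (by
        simpa [Subgroup.mem_subgroupOf, mul_assoc] using hu)
      simpa [Subgroup.mem_subgroupOf, mul_assoc] using h

/-- A normal subgroup meeting a Sylow subgroup trivially has order prime to `p`. -/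
theorem not_dvd_of_inf_eq_bot {X U N : Subgroup G} {P : Sylow p X}
    (hP : (P : Subgroup X) = U.subgroupOf X) (hNX : N ≤ X)
    (hN : ∀ x ∈ X, ∀ y ∈ N, x * y * x⁻¹ ∈ N) (hNU : ∀ y ∈ N, y ∈ U → y = 1) :
    ¬ p ∣ Nat.card N := by
  intro hdvd
  obtain ⟨⟨y, hy⟩, hord⟩ := exists_prime_orderOf_dvd_card' p hdvd
  rw [Subgroup.orderOf_mk] at hord
  set y' : X := ⟨y, hNX hy⟩
  have hy' : orderOf y' = p := by rw [Subgroup.orderOf_mk, hord]
  have hz : IsPGroup p (Subgroup.zpowers y') :=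
    IsPGroup.of_card (n := 1) (by rw [Nat.card_zpowers, hy', pow_one])
  obtain ⟨R, hR⟩ := hz.exists_le_sylow
  obtain ⟨x, rfl⟩ := MulAction.exists_smul_eq X P R
  obtain ⟨u, hu, hxu⟩ := hR (Subgroup.mem_zpowers y')
  rw [SetLike.mem_coe, hP, Subgroup.mem_subgroupOf] at hu
  have hyu : (x : G) * (u : G) * (x : G)⁻¹ = y := congrArg Subtype.val hxu
  have huN : (u : G) ∈ N := by
    have := hN (x⁻¹ : X) (x⁻¹ : X).2 y hy
    rw [← hyu] at this
    simpa [mul_assoc] using this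
  rw [hNU _ huN hu, mul_one, mul_inv_cancel] at hyu
  rw [← hyu, orderOf_one] at hord
  exact (Fact.out : p.Prime).one_lt.ne hord

/-- Burnside's complement and coprime generation put a subgroup inside `H`. -/
theorem le_of_burnside {X U W H : Subgroup G} {P : Sylow p X}
    (hP : (P : Subgroup X) = U.subgroupOf X) (hUX : U ≤ X) (hUH : U ≤ H)
    (hc : ∀ n ∈ X, (∀ u, u ∈ U ↔ n * u * n⁻¹ ∈ U) → ∀ u ∈ U, n * u = u * n)
    (hWU : W ≤ U) (hW : ¬ IsCyclic W)
    (hH : ∀ w ∈ W, w ≠ 1 → ∀ y ∈ X, w * y = y * w → y ∈ H) : X ≤ H := by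
  have hPc : normalizer (P : Set X) ≤ centralizer (P : Set X) := by
    intro n hn
    rw [Subgroup.mem_centralizer_iff]
    intro v hv
    have hn' : ∀ v : X, v ∈ U.subgroupOf X ↔ n * v * n⁻¹ ∈ U.subgroupOf X := by
      intro v
      rw [← hP]
      exact Subgroup.mem_normalizer_iff.1 hn v
    replace hv : v ∈ U.subgroupOf X := hP ▸ (hv : v ∈ (P : Subgroup X))
    refine Subtype.ext (hc n n.2 (fun u => ⟨fun hu => ?_, fun hu => ?_⟩) v hv).symm
    · exact (hn' ⟨u, hUX hu⟩).1 hu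
    · have hux : u ∈ X := by
        have := X.mul_mem (X.mul_mem (X.inv_mem n.2) (hUX hu)) n.2
        simpa [mul_assoc] using this
      exact (hn' ⟨u, hux⟩).2 hu
  have hcomp := MonoidHom.ker_transferSylow_isComplement' P hPc
  set N := (MonoidHom.transferSylow P hPc).ker
  have hN : ¬ p ∣ Nat.card (N.map X.subtype) := by
    rw [Subgroup.card_map_of_injective X.subtype_injective]
    exact MonoidHom.not_dvd_card_ker_transferSylow P hPc
  have hUc : ∀ a ∈ U, ∀ b ∈ U, a * b = b * a := fun a ha b hb =>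
    hc a (hUX ha) (fun u => ⟨fun hu => U.mul_mem (U.mul_mem ha hu) (U.inv_mem ha), fun hu => by
      simpa [mul_assoc] using U.mul_mem (U.mul_mem (U.inv_mem ha) hu) ha⟩) b hb
  have hUp : IsPGroup p U := by
    have : IsPGroup p (U.subgroupOf X) := hP ▸ P.2
    exact this.of_equiv (Subgroup.subgroupOfEquivOfLe hUX)
  have hNH : N.map X.subtype ≤ H := by
    have hWc : ∀ a ∈ W, ∀ b ∈ W, a * b = b * a := fun a ha b hb => hUc a (hWU ha) b (hWU hb)
    have hWp : IsPGroup p W := hUp.to_le hWU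
    refine le_of_coprime_centralizers (p := p) (W := W) (N := N.map X.subtype) hWc hWp hW ?_ hN
      fun w hw hw1 y hy hwy => ?_
    · intro w hw y' hy'
      obtain ⟨y, hy, rfl⟩ := Subgroup.mem_map.1 hy'
      refine Subgroup.mem_map.2 ⟨⟨w, hUX (hWU hw)⟩ * y * ⟨w, hUX (hWU hw)⟩⁻¹, ?_, ?_⟩
      · exact (MonoidHom.normal_ker _).conj_mem y hy _
      · simp only [map_mul, map_inv, Subgroup.coe_subtype]
    · obtain ⟨y, hy, rfl⟩ := hy
      exact hH w hw hw1 y y.2 hwy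
  intro x hx
  obtain ⟨⟨n, u⟩, hnu, -⟩ := hcomp.existsUnique ⟨x, hx⟩
  have h1 : (⟨x, hx⟩ : X) = (n : X) * (u : X) := hnu.symm
  have h2 : x = ((n : X) : G) * ((u : X) : G) := congrArg Subtype.val h1
  rw [h2]
  refine H.mul_mem (hNH ⟨n, n.2, rfl⟩) (hUH ?_)
  have := u.2
  simpa [hP, Subgroup.mem_subgroupOf] using this

omit [Fact p.Prime] in
/-- A subgroup controlling the fusion of a set of involutions, with few involutions in each outer
coset, is the whole group. -/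
theorem le_of_involution_count {X Y : Subgroup G} (hYX : Y ≤ X) (D : Set G) (hD : D ⊆ Y)
    (hinv : ∀ d ∈ D, d * d = 1) (hfus : ∀ m ∈ X, ∀ d ∈ D, m * d * m⁻¹ ∈ Y → m ∈ Y)
    (hfib : ∀ S : Set G, (∀ y ∈ S, y ∈ X ∧ y ∉ Y ∧ y * y = 1) →
      (∀ y ∈ S, ∀ z ∈ S, y * z ∈ Y) → Nat.card S < Nat.card D) : X ≤ Y := by
  classical
  intro m hm
  by_contra hmY
  haveI : Fintype G := Fintype.ofFinite G
  let π : G → G ⧸ Y := QuotientGroup.mk
  set C : Finset (G ⧸ Y) := Finset.univ.filter fun c => (∃ x ∈ X, π x = c) ∧ c ≠ π 1 with hC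
  have hrep : ∀ c ∈ C, ∃ x ∈ X, π x = c ∧ x ∉ Y := by
    intro c hc
    obtain ⟨⟨x, hx, rfl⟩, hc1⟩ := (Finset.mem_filter.1 hc).2
    exact ⟨x, hx, rfl, fun hxY => hc1 (QuotientGroup.eq.2 (by simpa using Y.inv_mem hxY))⟩
  choose! r hr using hrep
  let f : (G ⧸ Y) × G → G := fun cd => r cd.1 * cd.2 * (r cd.1)⁻¹
  set P := C ×ˢ D.toFinset with hP
  have hfinj : Set.InjOn f P := by
    rintro ⟨c, d⟩ hcd ⟨c', d'⟩ hcd' he
    rw [hP, Finset.mem_coe, Finset.mem_product, Set.mem_toFinset] at hcd hcd'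
    have hmem : ((r c')⁻¹ * r c) * d * ((r c')⁻¹ * r c)⁻¹ = d' := by
      have he' : r c * d * (r c)⁻¹ = r c' * d' * (r c')⁻¹ := he
      calc ((r c')⁻¹ * r c) * d * ((r c')⁻¹ * r c)⁻¹ = (r c')⁻¹ * (r c * d * (r c)⁻¹) * r c' := by group
        _ = d' := by rw [he']; group
    have h1 := hfus _ (X.mul_mem (X.inv_mem (hr c' hcd'.1).1) (hr c hcd.1).1) d hcd.2
      (hmem ▸ hD hcd'.2)
    have hcc : c = c' := by
      rw [← (hr c hcd.1).2.1, ← (hr c' hcd'.1).2.1]
      exact (QuotientGroup.eq.2 h1).symm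
    subst hcc
    rw [inv_mul_cancel, inv_one, one_mul, mul_one] at hmem
    rw [hmem]
  have hmaps : ∀ y ∈ P.image f, π y ∈ C := by
    intro y hy
    obtain ⟨⟨c, d⟩, hcd, rfl⟩ := Finset.mem_image.1 hy
    rw [hP, Finset.mem_product, Set.mem_toFinset] at hcd
    have hrX := (hr c hcd.1).1
    have hfX : f (c, d) ∈ X := X.mul_mem (X.mul_mem hrX (hYX (hD hcd.2))) (X.inv_mem hrX)
    refine Finset.mem_filter.2 ⟨Finset.mem_univ _, ⟨_, hfX, rfl⟩, fun h1 => ?_⟩
    have hY1 : f (c, d) ∈ Y := by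
      have := QuotientGroup.eq.1 h1
      simpa using Y.inv_mem this
    exact (hr c hcd.1).2.2 (hfus _ hrX d hcd.2 hY1)
  have hD1 : ∀ c ∈ C, ((P.image f).filter fun y => π y = c).card ≤ Nat.card D - 1 := by
    intro c hc
    have hsq : ∀ y ∈ P.image f, y ∈ X ∧ y * y = 1 := by
      intro y hy
      obtain ⟨⟨c', d⟩, hcd, rfl⟩ := Finset.mem_image.1 hy
      rw [hP, Finset.mem_product, Set.mem_toFinset] at hcd
      have hrX := (hr c' hcd.1).1
      refine ⟨X.mul_mem (X.mul_mem hrX (hYX (hD hcd.2))) (X.inv_mem hrX), ?_⟩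
      show r c' * d * (r c')⁻¹ * (r c' * d * (r c')⁻¹) = 1
      calc _ = r c' * (d * d) * (r c')⁻¹ := by group
        _ = 1 := by rw [hinv d hcd.2]; group
    have := hfib ↑((P.image f).filter fun y => π y = c) (fun y hy => by
        obtain ⟨hy1, hy2⟩ := Finset.mem_filter.1 hy
        refine ⟨(hsq y hy1).1, fun hyY => ?_, (hsq y hy1).2⟩
        exact (Finset.mem_filter.1 (hmaps y hy1)).2.2 (QuotientGroup.eq.2 (by simpa using Y.inv_mem hyY)))
      (fun y hy z hz => by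
        obtain ⟨hy1, hy2⟩ := Finset.mem_filter.1 hy
        obtain ⟨hz1, hz2⟩ := Finset.mem_filter.1 hz
        have := QuotientGroup.eq.1 (hy2.trans hz2.symm)
        rwa [inv_eq_of_mul_eq_one_right (hsq y hy1).2] at this)
    rw [Nat.card_coe_set_eq, Set.ncard_coe_finset] at this
    omega
  have h1 := Finset.card_le_mul_card_image_of_maps_to hmaps (Nat.card D - 1) hD1
  rw [Finset.card_image_of_injOn hfinj, hP, Finset.card_product, Set.toFinset_card,
    ← Nat.card_eq_fintype_card] at h1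
  have hC0 : 0 < C.card := Finset.card_pos.2 ⟨π m, Finset.mem_filter.2
    ⟨Finset.mem_univ _, ⟨m, hm, rfl⟩, fun h1 => hmY (by simpa using Y.inv_mem (QuotientGroup.eq.1 h1))⟩⟩
  rcases Nat.eq_zero_or_pos (Nat.card D) with h0 | hpos
  · have := hfib ∅ (fun y hy => hy.elim) (fun y hy => hy.elim)
    omega
  · obtain ⟨k, hk⟩ := Nat.exists_eq_succ_of_ne_zero hpos.ne'
    rw [hk, Nat.succ_sub_one] at h1
    nlinarith

end Cfsg.Agent.H19.OrthTensor
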