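import Cfsg.Agent.H19.OrthTensor.Small.Space

/-!
Commuting unipotent elements of a space in which every `e⊥/e` is anisotropic share their line.
-/

set_option autoImplicit false
set_option linter.unusedSectionVars false

namespace Cfsg.Agent.H19.OrthTensor

open QuadraticMap hiding sq
open Cfsg.Agent.H5 Module

variable {F V : Type*} [Field F] [Finite F] [AddCommGroup V] [Module F V] [Finite V]
  [FiniteDimensional F V] {Q : QuadraticForm F V} {p : ℕ} [Fact p.Prime] [CharP F p]

theorem exists_char (F : Type*) [Field F] [Finite F] : ∃ p : ℕ, Fact p.Prime ∧ CharP F p := by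
  obtain ⟨p, hp⟩ := CharP.exists F
  exact ⟨p, ⟨(CharP.char_is_prime_or_zero F p).resolve_right fun h0 => by
    subst h0; exact CharP.char_ne_zero_of_finite F 0 rfl⟩, hp⟩

/-- An eigenvector of a unipotent element is fixed. -/
theorem fixed_of_eigen {g : orth Q} {n : ℕ} (hg : g ^ p ^ n = 1) {x : V} {c : F}
    (hx : (g : V ≃ₗ[F] V) x = c • x) : (g : V ≃ₗ[F] V) x = x := by
  by_cases hx0 : x = 0
  · subst hx0; rw [map_zero]
  have h : ∀ m : ℕ, ((g ^ m : orth Q) : V ≃ₗ[F] V) x = c ^ m • x := by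
    intro m
    induction m with
    | zero => rw [pow_zero, pow_zero, one_smul]; rfl
    | succ m ih => rw [pow_succ', orth_mul_apply, ih, map_smul, hx, smul_smul, pow_succ]
  have h1 := h (p ^ n)
  rw [hg] at h1
  have h1' : (c ^ p ^ n) • x = (1 : F) • x := by rw [one_smul]; exact h1.symm
  have h2 : c ^ p ^ n = 1 := smul_left_injective F hx0 h1'
  have h3 : (c - 1) ^ p ^ n = 0 := by rw [sub_pow_char_pow, h2, one_pow, sub_self]
  rw [hx, sub_eq_zero.1 (eq_zero_of_pow_eq_zero h3), one_smul]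

/-- A vector orthogonal to `e` and singular is on the line of `e`. -/
theorem mem_span_of_perp_singular (hQ : (polarBilin Q).Nondegenerate) (hA : LineAniso Q) {e x : V}
    (he0 : e ≠ 0) (he : Q e = 0) (hex : polar Q e x = 0) (hx : Q x = 0) :
    x ∈ Submodule.span F {e} := by
  obtain ⟨h, hh⟩ := exists_hypPair hQ he0 he
  have hw := hh.decomp x
  rw [hex, zero_smul, sub_zero] at hw
  have h0 : Q (x - polar Q h x • e) = 0 := by
    rw [map_sub_smul, hx, he, polar_comm (⇑Q) x e, hex]; ring
  have := hA e h _ hh hw h0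
  rw [sub_eq_zero] at this
  rw [this]
  exact Submodule.smul_mem _ _ (Submodule.mem_span_singleton_self e)

theorem eich_eq_one_of_singular (hQ : (polarBilin Q).Nondegenerate) (hA : LineAniso Q) {e η : V}
    (he0 : e ≠ 0) (he : Q e = 0) (hη : polar Q e η = 0) (hQη : Q η = 0) : eich Q e η = 1 := by
  obtain ⟨c, hc⟩ := Submodule.mem_span_singleton.1 (mem_span_of_perp_singular hQ hA he0 he hη hQη)
  rw [← hc, ← zero_add (c • e), eich_add_smul he (polar_zero_right ..), eich_zero]

/-- A unipotent element fixing a singular vector is a root element of its line. -/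
theorem eich_of_fixed (hQ : (polarBilin Q).Nondegenerate) (h2 : (2 : F) ≠ 0) (hA : LineAniso Q)
    {k : orth Q} {n : ℕ} (hk : k ^ p ^ n = 1) {e : V} (he0 : e ≠ 0) (he : Q e = 0)
    (hfix : (k : V ≃ₗ[F] V) e = e) : ∃ η, polar Q e η = 0 ∧ k = eich Q e η := by
  by_cases h1 : k = 1
  · exact ⟨0, polar_zero_right .., by rw [h1, eich_zero]⟩
  obtain ⟨e', η', he'0, he', hη', hQη', rfl⟩ := exists_eich_of_unipotent hQ h2 hA h1 hk
  obtain ⟨c, hc⟩ := Submodule.mem_span_singleton.1
    (mem_span_of_eich_fixed hQ h2 hA he'0 he' hη' hQη' he hfix)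
  have hc0 : c ≠ 0 := fun h0 => he0 (by rw [← hc, h0, zero_smul])
  refine ⟨c⁻¹ • η', ?_, ?_⟩
  · rw [← hc, polar_smul_left, polar_smul_right, hη', smul_zero, smul_zero]
  · rw [← hc, eich_smul_smul he' (by rw [polar_smul_right, hη', smul_zero]), smul_smul,
      mul_inv_cancel₀ hc0, one_smul]

/-- A unipotent element commuting with a root element is in the same root group. -/
theorem eich_of_commute (hQ : (polarBilin Q).Nondegenerate) (h2 : (2 : F) ≠ 0) (hA : LineAniso Q)
    {k : orth Q} {n : ℕ} (hk : k ^ p ^ n = 1) {e a : V} (he0 : e ≠ 0) (he : Q e = 0)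
    (ha : polar Q e a = 0) (hQa : Q a ≠ 0) (hc : k * eich Q e a = eich Q e a * k) :
    ∃ η, polar Q e η = 0 ∧ k = eich Q e η := by
  refine eich_of_fixed hQ h2 hA hk he0 he ?_
  have hfix : (eich Q e a : V ≃ₗ[F] V) ((k : V ≃ₗ[F] V) e) = (k : V ≃ₗ[F] V) e := by
    rw [← orth_mul_apply, ← hc, orth_mul_apply, eich_apply_self he ha]
  obtain ⟨c, hc'⟩ := Submodule.mem_span_singleton.1
    (mem_span_of_eich_fixed hQ h2 hA he0 he ha hQa (by rw [orth_map, he]) hfix)
  exact fixed_of_eigen hk hc'.symm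

theorem pperp_eich_injective {e h a b : V} (hh : HypPair Q e h) (ha : a ∈ pperp Q e h)
    (hb : b ∈ pperp Q e h) (hab : eich Q e a = eich Q e b) : a = b := by
  obtain ⟨hea, hha⟩ := mem_pperp.1 ha
  obtain ⟨heb, hhb⟩ := mem_pperp.1 hb
  have h1 : (eich Q e a : V ≃ₗ[F] V) h = (eich Q e b : V ≃ₗ[F] V) h := by rw [hab]
  rw [eich_apply hh.left hea, eich_apply hh.left heb, hh.pair, one_smul, one_smul,
    polar_comm (⇑Q) a h, hha, polar_comm (⇑Q) b h, hhb, zero_smul, sub_zero, sub_zero, mul_one,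
    mul_one] at h1
  have h3 := congrArg (polar Q h) h1
  rw [polar_sub_right, polar_sub_right, polar_add_right, polar_add_right, hha, hhb, polar_smul_right,
    polar_smul_right, polar_self', hh.right, polar_comm (⇑Q) h e, hh.pair] at h3
  simp at h3
  rw [h3] at h1
  exact add_left_cancel (sub_left_inj.1 h1)

end Cfsg.Agent.H19.OrthTensor
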