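import Cfsg.Agent.H19.OrthTensor.Small.Setting
import Cfsg.Agent.H19.OrthTensor.Small.Unip
import Cfsg.Agent.H19.OrthTensor.Small.Group

/-!
Centralisers of the involutions of the three-dimensional factor, and the fusion of these involutions.
-/

set_option autoImplicit false
set_option linter.unusedSectionVars false

namespace Cfsg.Agent.H19.OrthTensor

open QuadraticMap hiding sq
open Cfsg.Agent.H5 Module

variable {F V A B : Type*} [Field F] [Finite F] [AddCommGroup V] [Module F V] [Finite V]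
  [FiniteDimensional F V] [AddCommGroup A] [Module F A] [Finite A] [FiniteDimensional F A]
  [AddCommGroup B] [Module F B] [Finite B] [FiniteDimensional F B]
  {Q : QuadraticForm F V} {QA : QuadraticForm F A} {QB : QuadraticForm F B}
  {pu : A →ₗ[F] B →ₗ[F] V}

namespace TO

variable (T : TO Q QA QB pu)
include T

/-- The root group of a singular vector of the second factor. -/
def rootB {e : B} (he : QB e = 0) : Subgroup (orth Q) where
  carrier := {m | ∃ η, polar QB e η = 0 ∧ m = T.kR (eich QB e η)}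
  one_mem' := ⟨0, polar_zero_right .., by rw [eich_zero, map_one]⟩
  mul_mem' := by
    rintro _ _ ⟨η, hη, rfl⟩ ⟨η', hη', rfl⟩
    exact ⟨η + η', by rw [polar_add_right, hη, hη', add_zero],
      by rw [← map_mul, eich_mul he hη hη']⟩
  inv_mem' := by
    rintro _ ⟨η, hη, rfl⟩
    exact ⟨-η, by rw [polar_neg_right, hη, neg_zero], by rw [← map_inv, eich_inv he hη]⟩

theorem rootB_pGroup {p : ℕ} [CharP F p] {e : B} (he : QB e = 0) : IsPGroup p (T.rootB he) := by
  rintro ⟨m, η, hη, rfl⟩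
  exact ⟨1, Subtype.ext (by
    rw [pow_one]
    show T.kR (eich QB e η) ^ p = 1
    rw [← map_pow, eich_pow_char he hη, map_one])⟩

variable {M : Subgroup (orth Q)} (S : T.Small M)
include S

theorem Small.rootB_mem {e : B} (he : QB e = 0) : T.rootB he ≤ M := by
  rintro _ ⟨η, -, rfl⟩
  exact S.hOver.right _ (eich_mem_omega T.ndB T.two e η)

theorem Small.card_pperp {e h : B} (hh : HypPair QB e h) :
    Nat.card (pperp QB e h) = Nat.card F ^ 2 := by
  have hd := hh.finrank_pperp T.ndB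
  rw [S.b4] at hd
  haveI := Module.Free.of_divisionRing F (pperp QB e h)
  rw [Module.natCard_eq_pow_finrank (K := F), show finrank F (pperp QB e h) = 2 by omega]

theorem Small.rootB_not_cyclic {e : B} (he0 : e ≠ 0) (he : QB e = 0) : ¬ IsCyclic (T.rootB he) := by
  obtain ⟨p, hp, hc⟩ := exists_char F
  intro hcyc
  obtain ⟨h, hh⟩ := exists_hypPair (Q := QB) T.ndB he0 he
  let f : pperp QB e h → T.rootB he := fun w =>
    ⟨T.kR (eich QB e w), w, (mem_pperp.1 w.2).1, rfl⟩
  have hf : Function.Injective f := fun w w' hw => Subtype.ext (pperp_eich_injective hh w.2 w'.2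
    (T.kR_injective (by rw [S.a3]; omega) (congrArg Subtype.val hw)))
  obtain ⟨⟨g, η, hη, rfl⟩, hg⟩ := hcyc.exists_generator
  have hord : ∀ x : T.rootB he, x ^ p = 1 := fun x => by
    obtain ⟨m, η, hη, rfl⟩ := x
    refine Subtype.ext ?_
    show T.kR (eich QB e η) ^ p = 1
    rw [← map_pow, eich_pow_char he hη, map_one]
  have h1 : Nat.card (T.rootB he) ≤ p := by
    rw [← orderOf_eq_card_of_forall_mem_zpowers hg]
    exact Nat.le_of_dvd hp.out.pos (orderOf_dvd_of_pow_eq_one (hord _))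
  have h2 := Nat.card_le_card_of_injective f hf
  rw [Small.card_pperp T S hh] at h2
  haveI := Fintype.ofFinite F
  obtain ⟨⟨k, hk0⟩, -, hk⟩ := FiniteField.card F p
  rw [Nat.card_eq_fintype_card (α := F), hk] at h2
  have h3 : p ^ (2 : ℕ) ≤ (p ^ k) ^ 2 :=
    Nat.pow_le_pow_left (by simpa using Nat.pow_le_pow_right hp.out.pos hk0) 2
  have h4 : p < p ^ 2 := by nlinarith [hp.out.two_le]
  exact absurd (h4.trans_le (h3.trans (h2.trans h1))) (lt_irrefl _)

theorem Small.dec_pow {g : orth QA} {k : orth QB} (hg : dick g = 1) {N : ℕ}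
    (h : T.pr (g, k) ^ N = 1) : g ^ N = 1 ∧ k ^ N = 1 := by
  have hd : ∀ m : ℕ, dick (g ^ m) = 1 := fun m => by
    induction m with
    | zero => rw [pow_zero, dick_one]
    | succ m ih => rw [pow_succ, dick_mul_odd T.ndA T.two, ih, hg, one_mul]
  refine T.eq_one_of_pr S.a3 (hd N) ?_ (by rw [S.b4]; omega)
  rw [show ((g ^ N, k ^ N) : orth QA × orth QB) = (g, k) ^ N from rfl, map_pow, h]

theorem Small.dec_commute {g g' : orth QA} {k k' : orth QB} (hg : dick g = 1) (hg' : dick g' = 1)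
    (h : T.pr (g, k) * T.pr (g', k') = T.pr (g', k') * T.pr (g, k)) :
    g * g' = g' * g ∧ k * k' = k' * k := by
  rw [← map_mul, ← map_mul] at h
  exact Small.pr_inj T S (by rw [dick_mul_odd T.ndA T.two, hg, hg', mul_one])
    (by rw [dick_mul_odd T.ndA T.two, hg, hg', mul_one]) h

/-- An element carrying a root group of the second factor to pure elements is pure. -/
theorem Small.mem_PG_of_conj_root {e : B} (he0 : e ≠ 0) (he : QB e = 0) {m : orth Q} (hm : m ∈ M)
    (hr : ∀ r ∈ T.rootB he, m * r * m⁻¹ ∈ T.PG) : m ∈ T.PG := by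
  obtain ⟨p, hp, hc⟩ := exists_char F
  obtain ⟨h, hh⟩ := exists_hypPair (Q := QB) T.ndB he0 he
  set W := pperp QB e h
  have hW : ∀ w : W, T.kR (eich QB e w) ∈ T.rootB he := fun w => ⟨w, (mem_pperp.1 w.2).1, rfl⟩
  have hex : ∀ w : W, ∃ g k, dick g = 1 ∧ k ∈ commutator (orth QB) ∧
      m * T.kR (eich QB e w) * m⁻¹ = T.pr (g, k) := fun w =>
    Small.dec T S (mul_mem (mul_mem hm (Small.rootB_mem T S he (hW w))) (inv_mem hm)) (hr _ (hW w))
  choose g k hg hk hgk using hex
  have hpow : ∀ w, g w ^ p ^ 1 = 1 ∧ k w ^ p ^ 1 = 1 := fun w => by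
    refine Small.dec_pow T S (hg w) ?_
    rw [← hgk, conj_pow, pow_one, ← map_pow, eich_pow_char he (mem_pperp.1 w.2).1, map_one, mul_one,
      mul_inv_cancel]
  by_cases hinj : Function.Injective g
  · exfalso
    obtain ⟨w₀, hw₀⟩ : ∃ w₀, g w₀ ≠ 1 := by
      by_contra! hall
      have h1 : Subsingleton W := ⟨fun a b => hinj (by rw [hall, hall])⟩
      have := Small.card_pperp T S hh
      rw [Nat.card_of_subsingleton (0 : W)] at this
      have := S.q5
      nlinarith
    obtain ⟨p₀, a₀, hp0, hps, hpa, hQa, hge⟩ :=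
      exists_eich_of_unipotent T.ndA T.two (lineAniso_three T.ndA S.a3) hw₀ (hpow w₀).1
    obtain ⟨b, hb⟩ := exists_eich_param T.ndA S.a3 hp0 hps
    have hσ : ∀ w, ∃ σ : F, g w = eich QA p₀ (σ • b) := by
      intro w
      have hcomm : g w * g w₀ = g w₀ * g w := by
        refine (Small.dec_commute T S (hg w) (hg w₀) (k := k w) (k' := k w₀) ?_).1
        rw [← hgk, ← hgk]
        have : T.kR (eich QB e w) * T.kR (eich QB e w₀) = T.kR (eich QB e w₀) * T.kR (eich QB e w) := by
          rw [← map_mul, ← map_mul, eich_comm he (mem_pperp.1 w.2).1 (mem_pperp.1 w₀.2).1]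
        calc _ = m * (T.kR (eich QB e w) * T.kR (eich QB e w₀)) * m⁻¹ := by group
          _ = _ := by rw [this]; group
      rw [hge] at hcomm
      obtain ⟨a, ha, hga⟩ := eich_of_commute T.ndA T.two (lineAniso_three T.ndA S.a3) (hpow w).1 hp0
        hps hpa hQa hcomm
      obtain ⟨σ, hσ⟩ := hb a ha
      exact ⟨σ, hga.trans hσ⟩
    choose σ hσ using hσ
    have h2 := Nat.card_le_card_of_injective σ fun w w' hww => hinj (by rw [hσ, hσ, hww])
    rw [Small.card_pperp T S hh] at h2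
    have := S.q5
    nlinarith
  · obtain ⟨w, w', hww, hne⟩ := Function.not_injective_iff.1 hinj
    have hδ : polar QB e ((w : B) - w') = 0 := (mem_pperp.1 (sub_mem w.2 w'.2)).1
    have hQδ : QB ((w : B) - w') ≠ 0 := fun h0 =>
      hne (Subtype.ext (sub_eq_zero.1 (S.aniso e h _ hh (sub_mem w.2 w'.2) h0)))
    have h1 : m * T.kR (eich QB e ((w : B) - w')) * m⁻¹ = T.kR (k w * (k w')⁻¹) := by
      rw [sub_eq_add_neg, ← eich_mul he (mem_pperp.1 w.2).1 (mem_pperp.1 (neg_mem w'.2)).1,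
        ← eich_inv he (mem_pperp.1 w'.2).1, map_mul, map_inv]
      calc _ = (m * T.kR (eich QB e w) * m⁻¹) * (m * T.kR (eich QB e w') * m⁻¹)⁻¹ := by group
        _ = _ := by
          rw [hgk, hgk, hww, ← map_inv T.pr, ← map_mul T.pr, Prod.inv_mk, Prod.mk_mul_mk,
            mul_inv_cancel, T.pr_apply, map_one, one_mul, map_mul, map_inv]
    have hk' : (k w * (k w')⁻¹) ^ p ^ 1 = 1 := by
      refine T.kR_injective (by rw [S.a3]; omega) ?_
      rw [map_pow, ← h1, conj_pow, pow_one, ← map_pow, eich_pow_char he hδ, map_one, mul_one,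
        mul_inv_cancel]
    have hne1 : k w * (k w')⁻¹ ≠ 1 := fun h0 => by
      rw [h0, map_one, conj_eq_one_iff] at h1
      exact eich_ne_one T.two he0 he hδ T.ndB hQδ (T.kR_injective (by rw [S.a3]; omega)
        (by rw [h1, map_one]))
    obtain ⟨e', η', he'0, he', hη', -, hke⟩ :=
      exists_eich_of_unipotent T.ndB T.two S.aniso hne1 hk'
    rw [hke] at h1
    exact Small.pure_B T S he0 he hδ hQδ he'0 he' hη' hm h1

/-- The centraliser in `M` of an involution of the first factor is pure. -/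
theorem Small.centralizer_tvec {a : A} (ha : QA a ≠ 0) {m : orth Q} (hm : m ∈ M)
    (hc : m * T.kL (tvec QA a) = T.kL (tvec QA a) * m) : m ∈ T.PG := by
  obtain ⟨p, hp, hcp⟩ := exists_char F
  set s := T.kL (tvec QA a) with hs
  obtain ⟨e, he0, he⟩ := H5.exists_singular (Q := QB) T.ndB (Small.hB T S)
  obtain ⟨h, hh⟩ := exists_hypPair (Q := QB) T.ndB he0 he
  set X := M ⊓ Subgroup.centralizer ({s} : Set (orth Q)) with hX
  have hXs : ∀ x ∈ X, x * s = s * x := fun x hx =>
    (Subgroup.mem_centralizer_iff.1 hx.2 s rfl).symm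
  set U := T.rootB he
  have hUX : U ≤ X := by
    intro r hr
    refine ⟨Small.rootB_mem T S he hr, Subgroup.mem_centralizer_iff.2 ?_⟩
    rintro _ rfl
    obtain ⟨η, -, rfl⟩ := hr
    exact (T.kR_comm _ _).symm.eq
  -- the action on the four-space fixed by `s`
  have hres : ∀ x ∈ X, ∃ K : orth QB, ∀ u,
      (x : V ≃ₗ[F] V) (pu a u) = pu a ((K : B ≃ₗ[F] B) u) := by
    intro x hx
    let K₀ : B →ₗ[F] B := (2 * QA a)⁻¹ • (T.C' a).comp (((x : V ≃ₗ[F] V) : V →ₗ[F] V).comp (pu a))
    have h2a : 2 * QA a ≠ 0 := mul_ne_zero T.two ha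
    have hK₀ : ∀ u, (x : V ≃ₗ[F] V) (pu a u) = pu a (K₀ u) := by
      intro u
      set v := (x : V ≃ₗ[F] V) (pu a u) with hv
      have hsv : (s : V ≃ₗ[F] V) v = v := by
        rw [hv, ← orth_mul_apply, ← hXs x hx, orth_mul_apply, hs, T.kL_pu, tvec_self ha]
      rw [← sub_eq_zero]
      refine T.eq_zero_of_C fun ζ => ?_
      have h1 : (tvec QA a : A ≃ₗ[F] A) (T.C ζ v) = T.C ζ v := by rw [← T.C_kL, ← hs, hsv]
      set z := T.C ζ v
      set c := polar QA a z / (2 * QA a) with hc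
      have hzc : polar QA a (z - c • a) = 0 := by
        rw [polar_sub_right, polar_smul_right, polar_self', hc, smul_eq_mul, div_mul_cancel₀ _ h2a,
          sub_self]
      have hz : z = c • a := by
        have h2 : (tvec QA a : A ≃ₗ[F] A) ((z - c • a) + c • a) = -(z - c • a) + c • a := by
          rw [map_add, tvec_perp hzc, map_smul, tvec_self ha]
        rw [sub_add_cancel, h1] at h2
        have h3 : (2 : F) • (z - c • a) = 0 := by linear_combination (norm := module) h2
        exact sub_eq_zero.1 ((smul_eq_zero.1 h3).resolve_left T.two)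
      have h4 : polar QB (K₀ u) ζ = c := by
        simp only [K₀, LinearMap.smul_apply, LinearMap.comp_apply, LinearEquiv.coe_coe, polar_smul_left,
          T.adj']
        rw [← hv, ← T.adj, show T.C ζ v = z from rfl, smul_eq_mul, hc, polar_comm, div_eq_inv_mul]
      rw [map_sub, T.C_pu, show T.C ζ v = z from rfl, hz, h4, sub_self]
    have hinj : Function.Injective K₀ := by
      refine (injective_iff_map_eq_zero _).2 fun u hu => T.pu_eq_zero_right (x := a) ?_
        (fun h0 => ha (by rw [h0, QuadraticMap.map_zero]))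
      apply (x : V ≃ₗ[F] V).injective
      rw [hK₀, hu, map_zero, map_zero]
    refine ⟨⟨LinearEquiv.ofBijective K₀ ⟨hinj, Finite.surjective_of_injective hinj⟩, fun u => ?_⟩,
      hK₀⟩
    have h1 := orth_map x (pu a u)
    rw [hK₀, T.Q_pu, T.Q_pu] at h1
    exact mul_left_cancel₀ ha (mul_left_cancel₀ T.two h1)
  have hn : ∀ n ∈ X, (∃ k : ℕ, n ^ p ^ k = 1) → (∀ u, u ∈ U ↔ n * u * n⁻¹ ∈ U) → n ∈ U := by
    rintro n hnX ⟨j, hj⟩ hnU
    have hnP : n ∈ T.PG := Small.mem_PG_of_conj_root T S he0 he hnX.1 fun r hr => by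
      obtain ⟨η, -, hrη⟩ := (hnU r).1 hr
      rw [hrη]; exact T.kR_mem_PG _
    obtain ⟨g, k, hg, -, rfl⟩ := Small.dec T S hnX.1 hnP
    obtain ⟨hgp, hkp⟩ := Small.dec_pow T S hg hj
    have hdt : dick (tvec QA a) = 1 := by
      rw [tvec, dick_mul_odd T.ndA T.two, dick_refl T.ndA ha, dick, rk_negOne T.two, S.a3]
      decide
    have hgs : g * tvec QA a = tvec QA a * g := by
      refine (Small.dec_commute T S hg hdt (k := k) (k' := 1) ?_).1
      rw [T.pr_apply (tvec QA a), map_one, mul_one]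
      exact hXs _ hnX
    have hga : (g : A ≃ₗ[F] A) a = a := by
      set z := (g : A ≃ₗ[F] A) a
      have h1 : (tvec QA a : A ≃ₗ[F] A) z = z := by
        rw [← orth_mul_apply, ← hgs, orth_mul_apply, tvec_self ha]
      set c := polar QA a z / (2 * QA a) with hc
      have hzc : polar QA a (z - c • a) = 0 := by
        rw [polar_sub_right, polar_smul_right, polar_self', hc, smul_eq_mul,
          div_mul_cancel₀ _ (mul_ne_zero T.two ha), sub_self]
      have h2 : (tvec QA a : A ≃ₗ[F] A) ((z - c • a) + c • a) = -(z - c • a) + c • a := by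
        rw [map_add, tvec_perp hzc, map_smul, tvec_self ha]
      rw [sub_add_cancel, h1] at h2
      have h3 : (2 : F) • (z - c • a) = 0 := by linear_combination (norm := module) h2
      exact fixed_of_eigen hgp (sub_eq_zero.1 ((smul_eq_zero.1 h3).resolve_left T.two))
    have hg1 : g = 1 := by
      by_contra hne
      obtain ⟨p₀, a₀, hp0, hps, hpa, -, rfl⟩ :=
        exists_eich_of_unipotent T.ndA T.two (lineAniso_three T.ndA S.a3) hne hgp
      have hf := finrank_fixer_three S.a3 hg hne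
      obtain ⟨c, hc⟩ := (finrank_eq_one_iff_of_nonzero'
        (⟨p₀, mem_fixer.2 (eich_apply_self hps hpa)⟩ : fixer (eich QA p₀ a₀))
        (fun h0 => hp0 (congrArg Subtype.val h0))).1 hf ⟨a, mem_fixer.2 hga⟩
      have hc' : c • p₀ = a := congrArg Subtype.val hc
      exact ha (by rw [← hc', QuadraticMap.map_smul, hps, smul_zero])
    subst hg1
    obtain ⟨η₀, hη₀, hQη₀⟩ := exists_anisotropic (hh.inf_perp T.ndB)
      (by have := hh.finrank_pperp T.ndB; rw [S.b4] at this; omega)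
    obtain ⟨η', hη', hke⟩ := (hnU _).1 (⟨η₀, (mem_pperp.1 hη₀).1, rfl⟩ : T.kR (eich QB e η₀) ∈ U)
    have hconj : k * eich QB e η₀ * k⁻¹ = eich QB e η' := by
      refine T.kR_injective (by rw [S.a3]; omega) ?_
      rw [← hke, T.pr_apply, map_one, one_mul, map_mul, map_mul, map_inv]
    rw [eich_conj] at hconj
    have hke' : (k : B ≃ₗ[F] B) e ∈ Submodule.span F {e} := by
      have hkη : polar QB ((k : B ≃ₗ[F] B) e) ((k : B ≃ₗ[F] B) η₀) = 0 := by
        rw [orth_polar, (mem_pperp.1 hη₀).1]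
      have hQη' : QB η' ≠ 0 := fun h0 => by
        rw [eich_eq_one_of_singular T.ndB S.aniso he0 he hη' h0] at hconj
        exact eich_ne_one T.two (fun h1 => he0 ((k : B ≃ₗ[F] B).injective (by rw [h1, map_zero])))
          (by rw [orth_map, he]) hkη T.ndB (by rw [orth_map]; exact hQη₀) hconj
      refine mem_span_of_eich_fixed T.ndB T.two S.aniso he0 he hη' hQη' (by rw [orth_map, he]) ?_
      rw [← hconj]
      exact eich_apply_self (by rw [orth_map, he]) hkη
    obtain ⟨c, hc⟩ := Submodule.mem_span_singleton.1 hke'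
    obtain ⟨η, hη, rfl⟩ := eich_of_fixed T.ndB T.two S.aniso hkp he0 he (fixed_of_eigen hkp hc.symm)
    exact ⟨η, hη, by rw [T.pr_apply, map_one, one_mul]⟩
  obtain ⟨P, hP⟩ := exists_sylow_eq hUX (T.rootB_pGroup he) hn
  let N : Subgroup (orth Q) :=
    { carrier := {x | x ∈ X ∧ ∀ u, (x : V ≃ₗ[F] V) (pu a u) = pu a u}
      one_mem' := ⟨one_mem _, fun u => rfl⟩
      mul_mem' := fun {x y} hx hy => ⟨mul_mem hx.1 hy.1, fun u => by rw [orth_mul_apply, hy.2, hx.2]⟩
      inv_mem' := fun {x} hx => ⟨inv_mem hx.1, fun u => by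
        conv_lhs => rw [← hx.2 u, orth_inv_apply_apply]⟩ }
  have hNX : N ≤ X := fun x hx => hx.1
  have hNn : ∀ x ∈ X, ∀ y ∈ N, x * y * x⁻¹ ∈ N := by
    intro x hx y hy
    refine ⟨mul_mem (mul_mem hx hy.1) (inv_mem hx), fun u => ?_⟩
    obtain ⟨K, hK⟩ := hres x⁻¹ (inv_mem hx)
    rw [orth_mul_apply, orth_mul_apply, hK, hy.2, ← hK, orth_apply_inv_apply]
  have hNU : ∀ y ∈ N, y ∈ U → y = 1 := by
    rintro _ hy ⟨η, hη, rfl⟩
    have h1 : eich QB e η = 1 := orth_ext fun u => by
      have h2 := hy.2 u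
      rw [T.kR_pu] at h2
      refine sub_eq_zero.1 (T.pu_eq_zero_right (x := a) ?_
        (fun h0 => ha (by rw [h0, QuadraticMap.map_zero])))
      rw [map_sub, h2]
      exact sub_self _
    rw [h1, map_one]
  have hNP : N ≤ T.PG := by
    refine le_of_coprime_centralizers (p := p) (W := U) ?_ (T.rootB_pGroup he)
      (Small.rootB_not_cyclic T S he0 he) (fun w hw y hy => hNn w (hUX hw) y hy)
      (not_dvd_of_inf_eq_bot hP hNX hNn hNU) fun w hw hw1 y hy hwy => ?_
    · rintro _ ⟨η, hη, rfl⟩ _ ⟨η', hη', rfl⟩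
      rw [← map_mul, ← map_mul, eich_comm he hη hη']
    · obtain ⟨η, hη, rfl⟩ := hw
      have hQη : QB η ≠ 0 := fun h0 => hw1 (by
        rw [eich_eq_one_of_singular T.ndB S.aniso he0 he hη h0, map_one])
      refine Small.pure_B T S he0 he hη hQη he0 he hη hy.1.1 ?_
      rw [← hwy, mul_inv_cancel_right]
  obtain ⟨K, hK⟩ := hres m ⟨hm, Subgroup.mem_centralizer_iff.2 (by rintro _ rfl; exact hc.symm)⟩
  obtain ⟨f, hf⟩ := exists_hypPair (Q := QB) T.ndB he0 he
  obtain ⟨k, hk, t, ht, hkt⟩ := exists_pairGroup_map T.ndB (Small.hB T S) hf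
    (x := (K : B ≃ₗ[F] B) e) (fun h0 => he0 ((K : B ≃ₗ[F] B).injective (by rw [h0, map_zero])))
    (by rw [orth_map, he])
  have hkM : T.kR k ∈ M := S.hOver.right k (pairGroup_le_omega T.ndB T.two _ _ hk)
  set m₁ := T.kR k * m
  have hm₁X : m₁ ∈ X := ⟨mul_mem hkM hm, Subgroup.mem_centralizer_iff.2 (by
    rintro _ rfl
    rw [← mul_assoc, ← (T.kR_comm k (tvec QA a)).eq, mul_assoc, hc.symm, ← mul_assoc])⟩
  obtain ⟨K', hK'e⟩ : ∃ K' : orth QB, K' = k * K := ⟨_, rfl⟩
  have hK' : ∀ u, (m₁ : V ≃ₗ[F] V) (pu a u) = pu a ((K' : B ≃ₗ[F] B) u) := fun u => by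
    rw [orth_mul_apply, hK, T.kR_pu, hK'e, orth_mul_apply]
  have hm₁ : m₁ ∈ T.PG := by
    refine Small.mem_PG_of_conj_root T S he0 he hm₁X.1 ?_
    rintro _ ⟨η, hη, rfl⟩
    have hte : (K' : B ≃ₗ[F] B) e = t • e := by rw [hK'e, orth_mul_apply, hkt]
    have hKη : polar QB e ((K' : B ≃ₗ[F] B) η) = 0 := by
      have h1 := orth_polar K' e η
      rw [hte, polar_smul_left, hη, smul_eq_mul] at h1
      exact (mul_eq_zero.1 h1).resolve_left ht
    have hη'' : polar QB e (t • (K' : B ≃ₗ[F] B) η) = 0 := by rw [polar_smul_right, hKη, smul_zero]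
    set r' := T.kR (eich QB e (t • (K' : B ≃ₗ[F] B) η))
    have hr'U : r' ∈ U := ⟨_, hη'', rfl⟩
    have hy : m₁ * T.kR (eich QB e η) * m₁⁻¹ * r'⁻¹ ∈ N := by
      refine ⟨mul_mem (mul_mem (mul_mem hm₁X (hUX ⟨η, hη, rfl⟩)) (inv_mem hm₁X))
        (inv_mem (hUX hr'U)), fun u => ?_⟩
      obtain ⟨w, rfl⟩ := (K' : B ≃ₗ[F] B).surjective
        ((((eich QB e (t • (K' : B ≃ₗ[F] B) η))⁻¹ : orth QB) : B ≃ₗ[F] B) u) |>.imp fun _ h =>
          show u = (eich QB e (t • (K' : B ≃ₗ[F] B) η) : B ≃ₗ[F] B) ((K' : B ≃ₗ[F] B) _) by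
            rw [h, orth_apply_inv_apply]
      rw [orth_mul_apply, show r'⁻¹ = T.kR (eich QB e (t • (K' : B ≃ₗ[F] B) η))⁻¹ from (map_inv _ _).symm,
        T.kR_pu, orth_inv_apply_apply, orth_mul_apply, orth_mul_apply, ← hK', orth_inv_apply_apply,
        T.kR_pu, hK', ← orth_mul_apply, ← eich_smul_smul he hKη, ← hte, ← eich_conj, orth_mul_apply,
        orth_mul_apply, orth_inv_apply_apply]
      rfl
    have := mul_mem (hNP hy) (T.kR_mem_PG (eich QB e (t • (K' : B ≃ₗ[F] B) η)))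
    rwa [inv_mul_cancel_right] at this
  have := mul_mem (T.PG.inv_mem (T.kR_mem_PG k)) hm₁
  rwa [← mul_assoc, inv_mul_cancel, one_mul] at this

/-- Fusion of the involutions of the first factor is controlled by the pure elements. -/
theorem Small.fusion_tvec {a : A} (ha : QA a ≠ 0) {m : orth Q} (hm : m ∈ M)
    (hc : m * T.kL (tvec QA a) * m⁻¹ ∈ T.PG) : m ∈ T.PG := by
  set s := T.kL (tvec QA a) with hs
  have hwM : m * s * m⁻¹ ∈ M := mul_mem (mul_mem hm (S.tv a ha)) (inv_mem hm)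
  obtain ⟨g, k, hg, hk, hgk⟩ := Small.dec T S hwM hc
  have hw2 : T.pr (g, k) ^ 2 = 1 := by
    rw [← hgk, conj_pow, pow_two, hs, ← map_mul, tvec_sq, map_one, mul_one, mul_inv_cancel]
  obtain ⟨hg2, hk2⟩ := Small.dec_pow T S hg hw2
  rw [pow_two] at hg2 hk2
  have h8 : negDim (T.kL g * T.kR k) = 8 := by
    rw [← T.pr_apply, ← hgk, negDim_conj, hs, T.negDim_kL, S.b4]
    have := negDim_tvec (Q := QA) T.ndA T.two ha
    rw [S.a3] at this
    omega
  rw [T.negDim_kL_kR hg2] at h8
  have hfg := finrank_eigen T.two hg2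
  have hfk := finrank_eigen T.two hk2
  rw [S.a3] at hfg
  rw [S.b4] at hfk
  have he1 := even_rk hg
  have he2 := even_rk (dick_omega T.ndB T.two hk)
  have hrg := rk_add_finrank_fixer g
  have hrkk := rk_add_finrank_fixer k
  rw [S.a3] at hrg
  rw [S.b4] at hrkk
  simp only [negDim] at h8
  obtain ⟨i, hi⟩ := he1
  obtain ⟨j, hj⟩ := he2
  have hk0 : negDim k = 0 := by
    show finrank F (negSp k) = 0
    generalize hFg : finrank F (fixer g) = fg at *
    generalize hNg : finrank F (negSp g) = ng at *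
    generalize hFk : finrank F (fixer k) = fk at *
    generalize hNk : finrank F (negSp k) = nk at *
    have : fg = 3 ∨ fg = 1 := by omega
    have : fk = 4 ∨ fk = 2 ∨ fk = 0 := by omega
    rcases ‹fg = 3 ∨ fg = 1› with h1 | h1 <;> rcases ‹fk = 4 ∨ fk = 2 ∨ fk = 0› with h2 | h2 | h2 <;>
      rw [h1, h2] at h8 <;> simp only [negDim] at hfg hfk <;> omega
  have hk1 := eq_one_of_negDim T.two hk2 hk0
  subst hk1
  have hg1 : g ≠ 1 := by
    intro h0
    have : T.pr (g, (1 : orth QB)) = 1 := by rw [h0, T.pr_apply, map_one, map_one, one_mul]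
    rw [this, conj_eq_one_iff] at hgk
    have h2 := negDim_tvec (Q := QA) T.ndA T.two ha
    rw [hs] at hgk
    have h3 := T.negDim_kL (tvec QA a)
    rw [hgk, negDim_one T.two, S.b4, S.a3] at *
    omega
  obtain ⟨a', ha', rfl⟩ := exists_tvec_eq T.ndA T.two S.a3 hg hg2 hg1
  obtain ⟨e, he0, he⟩ := H5.exists_singular (Q := QB) T.ndB (Small.hB T S)
  refine Small.mem_PG_of_conj_root T S he0 he hm ?_
  rintro _ ⟨η, hη, rfl⟩
  refine Small.centralizer_tvec T S ha' (mul_mem (mul_mem hm (S.hOver.right _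
    (eich_mem_omega T.ndB T.two e η))) (inv_mem hm)) ?_
  have : T.kL (tvec QA a') = m * s * m⁻¹ := by rw [hgk, T.pr_apply, map_one, mul_one]
  rw [this]
  calc m * T.kR (eich QB e η) * m⁻¹ * (m * s * m⁻¹) = m * (T.kR (eich QB e η) * s) * m⁻¹ := by group
    _ = m * (s * T.kR (eich QB e η)) * m⁻¹ := by rw [hs, (T.kR_comm _ _).eq]
    _ = _ := by group

end TO

end Cfsg.Agent.H19.OrthTensor
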