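import Cfsg.Agent.H19.OrthTensor.Small.Pure
import Cfsg.Agent.H19.OrthTensor.Small.Space
import Cfsg.Agent.H19.OrthTensor.Dim

/-!
The pure elements of `Ω` for the product of a three-dimensional and a four-dimensional space.
-/

set_option autoImplicit false
set_option linter.unusedSectionVars false

namespace Cfsg.Agent.H19.OrthTensor

open QuadraticMap hiding sq
open Cfsg.Agent.H5 Module

variable {F V A B : Type*} [Field F] [Finite F] [AddCommGroup V] [Module F V] [Finite V]
  [FiniteDimensional F V] [AddCommGroup A] [Module F A] [Finite A] [FiniteDimensional F A]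
  [AddCommGroup B] [Module F B] [Finite B] [FiniteDimensional F B]
  {Q : QuadraticForm F V} {QA : QuadraticForm F A} {QB : QuadraticForm F B}
  {pu : A →ₗ[F] B →ₗ[F] V}

namespace TO

variable (T : TO Q QA QB pu)
include T

/-- The product map of the two orthogonal groups. -/
def pr : orth QA × orth QB →* orth Q :=
  MonoidHom.noncommCoprod T.kL T.kR fun g k => (T.kR_comm k g).symm

theorem pr_apply (g : orth QA) (k : orth QB) : T.pr (g, k) = T.kL g * T.kR k := rfl

theorem pr_pu (g : orth QA) (k : orth QB) (x : A) (u : B) :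
    (T.pr (g, k) : V ≃ₗ[F] V) (pu x u) = pu ((g : A ≃ₗ[F] A) x) ((k : B ≃ₗ[F] B) u) := by
  rw [T.pr_apply, orth_mul_apply, T.kR_pu, T.kL_pu]

theorem pr_negOne : T.pr (negOne QA, negOne QB) = 1 :=
  T.orth_ext_pu fun x u => by
    rw [T.pr_pu, negOne_apply, negOne_apply, map_neg, map_neg, LinearMap.neg_apply, neg_neg]
    rfl

/-- The product of rotations and isometries is faithful. -/
theorem eq_one_of_pr (hA : finrank F A = 3) {g : orth QA} {k : orth QB} (hg : dick g = 1)
    (h : T.pr (g, k) = 1) (hB : 1 ≤ finrank F B) : g = 1 ∧ k = 1 := by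
  have : Nontrivial B := Module.nontrivial_of_finrank_pos (R := F) (by omega)
  obtain ⟨u, hu⟩ := exists_ne (0 : B)
  obtain ⟨w, hw⟩ := exists_polar_eq_one (Q := QB) T.ndB hu
  set c := polar QB w ((k : B ≃ₗ[F] B) u) with hc
  have hgx : ∀ x, c • (g : A ≃ₗ[F] A) x = x := fun x => by
    have h1 := congrArg (T.C w) (T.pr_pu g k x u)
    rw [h, T.C_pu] at h1
    change T.C w (pu x u) = _ at h1
    rw [T.C_pu, hw, one_smul, polar_comm (⇑QB) ((k : B ≃ₗ[F] B) u) w] at h1
    exact h1.symm
  obtain ⟨x₁, hx₁⟩ : ∃ x, QA x ≠ 0 := by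
    obtain ⟨e₁, he₁0, he₁⟩ := H5.exists_singular (Q := QA) T.ndA (by omega)
    obtain ⟨f₁, hf₁⟩ := exists_hypPair (Q := QA) T.ndA he₁0 he₁
    exact ⟨e₁ + f₁, by rw [QuadraticMap.map_add (⇑QA), he₁, hf₁.right, hf₁.pair]; simp⟩
  have hc2 : c * c = 1 := by
    have h1 := congrArg QA (hgx x₁)
    rw [QuadraticMap.map_smul, orth_map, smul_eq_mul] at h1
    exact mul_right_cancel₀ hx₁ (by rw [h1, one_mul])
  have hg1 : g = 1 := by
    rcases mul_self_eq_one_iff.1 hc2 with h1 | h1
    · refine orth_ext fun x => ?_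
      have := hgx x
      rw [h1, one_smul] at this
      rw [this]; rfl
    · exfalso
      have hn : g = negOne QA := orth_ext fun x => by
        have := hgx x
        rw [h1, neg_one_smul] at this
        rw [negOne_apply]
        exact neg_eq_iff_eq_neg.1 this
      rw [hn, dick, rk_negOne T.two, hA] at hg
      exact absurd hg (by decide)
  refine ⟨hg1, T.kR_injective (by omega) ?_⟩
  rw [T.pr_apply, hg1, map_one, one_mul] at h
  rw [h, map_one]

theorem pr_inj (hA : finrank F A = 3) (hB : 1 ≤ finrank F B) {g g' : orth QA} {k k' : orth QB}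
    (hg : dick g = 1) (hg' : dick g' = 1) (h : T.pr (g, k) = T.pr (g', k')) : g = g' ∧ k = k' := by
  have hd : dick (g'⁻¹ * g) = 1 := by
    have h1 : dick g'⁻¹ * dick g' = 1 := by rw [← dick_mul_odd T.ndA T.two, inv_mul_cancel, dick_one]
    rw [dick_mul_odd T.ndA T.two, hg, mul_one]
    rwa [hg', mul_one] at h1
  have h0 : T.pr (g'⁻¹ * g, k'⁻¹ * k) = 1 := by
    rw [show ((g'⁻¹ * g, k'⁻¹ * k) : orth QA × orth QB) = (g', k')⁻¹ * (g, k) from rfl, map_mul,
      map_inv, h, inv_mul_cancel]
  obtain ⟨h1, h2⟩ := T.eq_one_of_pr hA hd h0 hB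
  exact ⟨(inv_mul_eq_one.1 h1).symm, (inv_mul_eq_one.1 h2).symm⟩

/-- A reflection of the second factor as a product of reflections. -/
theorem kR_refl {n : ℕ} {p : Fin n → A} (hp : OFam QA p) (hn : n = finrank F A) {u : B}
    (hu : QB u ≠ 0) : T.kR (refl QB u) = reflProd Q (fun i => pu (p i) u) := by
  have hP : OFam Q (fun i => pu (p i) u) :=
    ⟨fun i => by rw [T.Q_pu]; exact mul_ne_zero T.two (mul_ne_zero (hp.ne i) hu),
      fun i j hij => by rw [T.form, hp.orth i j hij, zero_mul]⟩
  have htop : Submodule.span F (Set.range p) = ⊤ :=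
    Submodule.eq_top_of_finrank_eq (by rw [hp.finrank_span T.two, hn])
  refine T.orth_ext_pu fun x v => ?_
  have hx : x ∈ Submodule.span F (Set.range p) := htop.ge Submodule.mem_top
  induction hx using Submodule.span_induction with
  | mem x hx =>
    obtain ⟨i, rfl⟩ := hx
    have hv : v = (v - (polar QB u v / (2 * QB u)) • u) + (polar QB u v / (2 * QB u)) • u := by abel
    have ho : polar QB u (v - (polar QB u v / (2 * QB u)) • u) = 0 := by
      rw [polar_sub_right, polar_smul_right, polar_self', smul_eq_mul,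
        div_mul_cancel₀ _ (mul_ne_zero T.two hu), sub_self]
    have hfx : (reflProd Q (fun i => pu (p i) u) : V ≃ₗ[F] V)
        (pu (p i) (v - (polar QB u v / (2 * QB u)) • u)) = pu (p i) (v - (polar QB u v / (2 * QB u)) • u) :=
      reflProd_fixed _ fun j => by rw [T.form, ho, mul_zero]
    rw [T.kR_pu, hv]
    simp only [map_add, map_smul]
    rw [refl_apply_of_ortho ho, refl_apply_self hu, hfx, hP.reflProd_neg i, map_neg]
  | zero => simp
  | add a b _ _ ha hb => simp only [map_add, LinearMap.add_apply, ha, hb]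
  | smul c a _ ha => simp only [map_smul, LinearMap.smul_apply, ha]

/-- Dickson invariant and spinor norm of the copy of the second factor. -/
theorem sign_kR (hA : 2 ≤ finrank F A) : ∃ δ : ℤˣ, ∀ k : orth QB,
    dick (T.kR k) = dick k ^ finrank F A ∧
      spin Q (T.kR k) = (if dick k = 1 then 1 else δ) * spin QB k ^ finrank F A := by
  obtain ⟨p₀, hp₀, hq₀⟩ := exists_oFam_norm (Q := QA) T.ndA T.two (one_ne_zero (α := F))
    (finrank F A - 1) (by omega)
  obtain ⟨z, hz, ho⟩ := hp₀.exists_perp_aniso T.ndA T.two (by omega)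
  obtain ⟨n, hn⟩ : ∃ n, finrank F A = n + 1 := ⟨finrank F A - 1, by omega⟩
  set p : Fin (finrank F A - 1 + 1) → A := Fin.snoc p₀ z
  have hp : OFam QA p := hp₀.snoc hz ho
  set c₀ := ∏ i, (2 * QA (p i)) with hc₀
  have hc₀0 : c₀ ≠ 0 := Finset.prod_ne_zero_iff.2 fun i _ => mul_ne_zero T.two (hp.ne i)
  refine ⟨sqc c₀, fun k => ?_⟩
  have hk : k ∈ reflGroup QB := by
    rw [reflGroup_eq_top T.ndB (Or.inl (card_ne_two T.two))]; trivial
  refine reflGroup_induction (p := fun k => dick (T.kR k) = dick k ^ finrank F A ∧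
      spin Q (T.kR k) = (if dick k = 1 then 1 else sqc c₀) * spin QB k ^ finrank F A)
    (by simp [dick_one]) (fun u k hu _ ih => ?_) hk
  have hrefl := T.kR_refl hp (by omega) hu
  have hne : ∀ v ∈ List.ofFn (fun i => pu (p i) u), Q v ≠ 0 := by
    intro v hv
    obtain ⟨i, rfl⟩ := List.mem_ofFn.1 hv
    rw [T.Q_pu]; exact mul_ne_zero T.two (mul_ne_zero (hp.ne i) hu)
  have h1 : dick (T.kR (refl QB u)) = (-1) ^ finrank F A := by
    rw [hrefl, OrthTensor.reflProd, show (List.ofFn fun i => refl Q (pu (p i) u)) =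
      (List.ofFn fun i => pu (p i) u).map (refl Q) by rw [List.map_ofFn]; rfl,
      dick_list_prod T.ndV _ hne, List.length_ofFn]
    congr 1
    omega
  have h2 : spin Q (T.kR (refl QB u)) = sqc c₀ * sqc (QB u) ^ finrank F A := by
    rw [hrefl, OrthTensor.reflProd, show (List.ofFn fun i => refl Q (pu (p i) u)) =
      (List.ofFn fun i => pu (p i) u).map (refl Q) by rw [List.map_ofFn]; rfl,
      spin_list_prod _ hne, List.map_ofFn, List.prod_ofFn]
    have h3 : (∏ i, ((fun v => Q v) ∘ fun i => pu (p i) u) i) = c₀ * QB u ^ finrank F A := by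
      have hcard : QB u ^ finrank F A = ∏ _i : Fin (finrank F A - 1 + 1), QB u := by
        rw [Finset.prod_const, Finset.card_univ, Fintype.card_fin]
        congr 1
        omega
      rw [hc₀, hcard, ← Finset.prod_mul_distrib]
      refine Finset.prod_congr rfl fun i _ => ?_
      simp only [Function.comp_apply, T.Q_pu]
      ring
    rw [h3, sqc_mul hc₀0 (pow_ne_zero _ hu)]
    congr 1
    induction finrank F A with
    | zero => simp [sqc_one]
    | succ m ihm => rw [pow_succ, sqc_mul (pow_ne_zero _ hu) hu, ihm, pow_succ]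
  refine ⟨?_, ?_⟩
  · rw [map_mul, dick_mul_odd T.ndV T.two, h1, ih.1, dick_refl_mul T.ndB hu, ← mul_pow, neg_one_mul]
  · rw [map_mul, map_mul, h2, ih.2, dick_refl_mul T.ndB hu, map_mul, spin_refl hu, mul_pow]
    rcases Int.units_eq_one_or (dick k) with hd | hd <;> simp only [hd, neg_neg, if_true,
      if_neg (show (-1 : ℤˣ) ≠ 1 by decide), one_mul]
    · rw [mul_assoc]
    · rw [mul_mul_mul_comm, Int.units_mul_self, one_mul]

end TO

end Cfsg.Agent.H19.OrthTensor
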