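import Cfsg.Agent.H19.OrthTensor.Small.Space
import Cfsg.Agent.H5.OmegaCriterion
import Cfsg.Agent.H5.Pairs

/-!
An involution of `Ω₄⁻(q)` whose centraliser there has order less than `q²`.
-/

set_option autoImplicit false
set_option linter.unusedSectionVars false

namespace Cfsg.Agent.H19.OrthTensor

open QuadraticMap hiding sq
open Cfsg.Agent.H5 Module

variable {F V : Type*} [Field F] [Finite F] [AddCommGroup V] [Module F V] [Finite V]
  [FiniteDimensional F V] {Q : QuadraticForm F V}

/-- An isometry group of an anisotropic plane has at most `|F| + 1` images of a vector. -/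
theorem card_circle_le {u w : V} (hu : Q u ≠ 0) (huw : polar Q u w = 0)
    (haniso : ∀ s t : F, Q (s • u + t • w) = 0 → s = 0 ∧ t = 0) :
    Nat.card {v : V // (∃ s t : F, v = s • u + t • w) ∧ Q v = Q u} ≤ Nat.card F + 1 := by
  classical
  have hcoord : ∀ v : {v : V // (∃ s t : F, v = s • u + t • w) ∧ Q v = Q u},
      ∃ s t : F, (v : V) = s • u + t • w := fun v => v.2.1
  choose s t hst using hcoord
  let f : {v : V // (∃ s t : F, v = s • u + t • w) ∧ Q v = Q u} → Option F := fun v =>
    if t v = 0 then (if s v = 1 then some 0 else none) else some ((s v - 1) / t v)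
  have hform : ∀ v, s v * s v * Q u + t v * t v * Q w = Q u := fun v => by
    have h := v.2.2
    rw [hst, map_smul_add_smul, huw] at h
    linear_combination h
  have h1 : ∀ v, t v = 0 → s v = 1 ∨ s v = -1 := fun v h0 => by
    have h := hform v
    rw [h0] at h
    exact mul_self_eq_one_iff.1 (mul_right_cancel₀ hu (by linear_combination h))
  have hinj : Function.Injective f := by
    intro v v' hvv
    refine Subtype.ext ?_
    suffices hh : s v = s v' ∧ t v = t v' by rw [hst, hst, hh.1, hh.2]
    simp only [f] at hvv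
    have key : ∀ x, ∀ r, t x ≠ 0 → s x - 1 = r * t x →
        t x * (r * r * Q u + Q w) = -(2 * r * Q u) := fun x r hx hr => by
      have h := hform x
      rw [show s x = 1 + r * t x by linear_combination hr] at h
      exact mul_left_cancel₀ hx (by linear_combination h)
    have hne : ∀ r : F, r * r * Q u + Q w ≠ 0 := fun r h0 => by
      obtain ⟨-, h⟩ := haniso r 1 (by rw [map_smul_add_smul, huw]; linear_combination h0)
      exact one_ne_zero h
    have zero : ∀ x, t x ≠ 0 → (s x - 1) / t x ≠ 0 := fun x hx h0 => by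
      have h2 : s x - 1 = 0 * t x := by
        rcases div_eq_zero_iff.1 h0 with h | h
        · rw [h, zero_mul]
        · exact absurd h hx
      have h := key x 0 hx h2
      exact hx ((mul_eq_zero.1 (h.trans (by ring))).resolve_right (hne 0))
    by_cases hv : t v = 0 <;> by_cases hv' : t v' = 0
    · rw [if_pos hv, if_pos hv'] at hvv
      refine ⟨?_, by rw [hv, hv']⟩
      rcases h1 v hv with h | h <;> rcases h1 v' hv' with h' | h' <;> rw [h, h'] at hvv ⊢
      · by_contra hne
        rw [if_pos rfl, if_neg fun hh => hne hh.symm] at hvv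
        cases hvv
      · by_contra hne
        rw [if_pos rfl, if_neg hne] at hvv
        cases hvv
    · rw [if_pos hv, if_neg hv'] at hvv
      exfalso
      rcases h1 v hv with h | h <;> rw [h] at hvv <;> split_ifs at hvv <;>
        exact zero v' hv' (Option.some.inj hvv).symm
    · rw [if_neg hv, if_pos hv'] at hvv
      exfalso
      rcases h1 v' hv' with h | h <;> rw [h] at hvv <;> split_ifs at hvv <;>
        exact zero v hv (Option.some.inj hvv)
    · rw [if_neg hv, if_neg hv'] at hvv
      have h := Option.some.inj hvv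
      have e1 : s v - 1 = (s v - 1) / t v * t v := (div_mul_cancel₀ _ hv).symm
      have e2 : s v' - 1 = (s v - 1) / t v * t v' := by rw [h, div_mul_cancel₀ _ hv']
      have e3 := key v _ hv e1
      have e4 := key v' _ hv' e2
      have ht : t v = t v' := mul_right_cancel₀ (hne ((s v - 1) / t v)) (e3.trans e4.symm)
      exact ⟨by linear_combination e1 - e2 + ((s v - 1) / t v) * ht, ht⟩
  haveI := Fintype.ofFinite F
  have h2 := Nat.card_le_card_of_injective f hinj
  rw [Nat.card_eq_fintype_card (α := Option F), Fintype.card_option, ← Nat.card_eq_fintype_card] at h2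
  exact h2

set_option maxHeartbeats 800000 in
/-- An involution of `Ω` in dimension four with small centraliser. -/
theorem exists_involution_small (hQ : (polarBilin Q).Nondegenerate) (h2 : (2 : F) ≠ 0)
    (h4 : finrank F V = 4) (hA : LineAniso Q) :
    ∃ t ∈ commutator (orth Q), t * t = 1 ∧
      Nat.card {k : orth Q // k ∈ commutator (orth Q) ∧ k * t = t * k} < Nat.card F ^ 2 := by
  classical
  haveI := Fintype.ofFinite F
  obtain ⟨e, he0, he⟩ := H5.exists_singular hQ (by omega)
  obtain ⟨h, hh⟩ := exists_hypPair hQ he0 he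
  have hd := hh.finrank_pperp hQ
  obtain ⟨u, hu, hQu⟩ := exists_anisotropic (hh.inf_perp hQ) (by omega)
  obtain ⟨z, hz, hzs⟩ : ∃ z ∈ pperp Q e h, z ∉ Submodule.span F {u} := by
    by_contra! hall
    have h3 := Submodule.finrank_mono (show pperp Q e h ≤ Submodule.span F {u} from hall)
    rw [finrank_span_singleton (fun h0 => hQu (by rw [h0, QuadraticMap.map_zero]))] at h3
    omega
  set w := z - (polar Q u z / (2 * Q u)) • u with hwdef
  have hw : w ∈ pperp Q e h := sub_mem hz (Submodule.smul_mem _ _ hu)
  have huw : polar Q u w = 0 := by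
    rw [hwdef, polar_sub_right, polar_smul_right, polar_self', smul_eq_mul,
      div_mul_cancel₀ _ (mul_ne_zero h2 hQu), sub_self]
  have hw0 : w ≠ 0 := fun h0 => hzs (by
    rw [sub_eq_zero.1 (hwdef.symm.trans h0)]
    exact Submodule.smul_mem _ _ (Submodule.mem_span_singleton_self u))
  have hQw : Q w ≠ 0 := fun h0 => hw0 (hA e h w hh hw h0)
  obtain ⟨heu, hhu⟩ := mem_pperp.1 hu
  obtain ⟨hew, hhw⟩ := mem_pperp.1 hw
  have haniso : ∀ s t : F, Q (s • u + t • w) = 0 → s = 0 ∧ t = 0 := by
    intro s t h0
    have h1 := hA e h _ hh (add_mem (Submodule.smul_mem _ s hu) (Submodule.smul_mem _ t hw)) h0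
    have e1 := congrArg (polar Q u) h1
    have e2 := congrArg (polar Q w) h1
    simp [polar_add_right, polar_smul_right, polar_self', huw, polar_comm (⇑Q) w u, h2, hQu, hQw]
      at e1 e2
    exact ⟨e1, e2⟩
  have hsq : ¬ IsSquare (-(Q u * Q w)) := by
    rintro ⟨r, hr⟩
    have := (haniso r (Q u) (by rw [map_smul_add_smul, huw]; linear_combination -(Q u) * hr)).2
    exact hQu this
  have he1 : polar Q h e = 1 := by rw [polar_comm]; exact hh.pair
  have hv1 : Q (e - (1 : F) • h) = -1 := hh.map_sub_smul_norm 1
  have hv2 : Q (e - (-1 : F) • h) = 1 := by rw [hh.map_sub_smul_norm]; ring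
  obtain ⟨t, ε, hε, htΩ, htt, hte, hth, htW⟩ : ∃ (t : orth Q) (ε : F), (ε = 1 ∨ ε = -1) ∧
      t ∈ commutator (orth Q) ∧ t * t = 1 ∧ (t : V ≃ₗ[F] V) e = ε • e ∧
      (t : V ≃ₗ[F] V) h = ε • h ∧ ∀ x ∈ pperp Q e h, (t : V ≃ₗ[F] V) x = -(ε • x) := by
    by_cases hm : IsSquare (-1 : F)
    · have hfam : OFam Q ![e - (1 : F) • h, e - (-1 : F) • h] := oFam_two
        (by rw [hv1]; exact neg_ne_zero.2 one_ne_zero) (by rw [hv2]; exact one_ne_zero)
        (by simp [polar_sub_left, polar_sub_right, polar_add_left, polar_add_right, polar_smul_left,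
          polar_smul_right, polar_self', he, hh.right, hh.pair, he1])
      refine ⟨reflProd Q ![e - (1 : F) • h, e - (-1 : F) • h], -1, Or.inr rfl,
        hfam.reflProd_mem hQ h2 (by decide) (by
          rw [Fin.prod_univ_two]
          simp only [Matrix.cons_val_zero, Matrix.cons_val_one]
          rwa [hv1, hv2, mul_one]),
        hfam.reflProd_sq hQ h2, ?_, ?_, fun x hx => ?_⟩
      · have e1 := hfam.reflProd_neg 0
        have e2 := hfam.reflProd_neg 1
        simp only [Matrix.cons_val_zero, Matrix.cons_val_one, one_smul, neg_smul, sub_neg_eq_add,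
          map_sub, map_add] at e1 e2
        set X := (reflProd Q ![e - (1 : F) • h, e - (-1 : F) • h] : V ≃ₗ[F] V) with hX
        simp only [one_smul, neg_smul, sub_neg_eq_add] at hX
        rw [← hX] at e1 e2
        have h3 : (2 : F) • X e = (2 : F) • (-e) := by linear_combination (norm := module) e1 + e2
        rw [smul_right_injective V h2 h3, neg_one_smul]
      · have e1 := hfam.reflProd_neg 0
        have e2 := hfam.reflProd_neg 1
        simp only [Matrix.cons_val_zero, Matrix.cons_val_one, one_smul, neg_smul, sub_neg_eq_add,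
          map_sub, map_add] at e1 e2
        set X := (reflProd Q ![e - (1 : F) • h, e - (-1 : F) • h] : V ≃ₗ[F] V) with hX
        simp only [one_smul, neg_smul, sub_neg_eq_add] at hX
        rw [← hX] at e1 e2
        have h3 : (2 : F) • X h = (2 : F) • (-h) := by linear_combination (norm := module) e2 - e1
        rw [smul_right_injective V h2 h3, neg_one_smul]
      · obtain ⟨hex, hhx⟩ := mem_pperp.1 hx
        rw [reflProd_fixed _ fun i => ?_, neg_smul, one_smul, neg_neg]
        fin_cases i <;> simp [polar_sub_left, polar_add_left, polar_smul_left, hex, hhx]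
    · have hfam : OFam Q ![u, w] := oFam_two hQu hQw huw
      have hsq2 : IsSquare (Q u * Q w) := by
        by_contra hns
        have hmn : sqc (-1 : F) = -1 := sqc_eq_neg_one_iff.2 hm
        have hun : sqc (Q u * Q w) = -1 := sqc_eq_neg_one_iff.2 hns
        refine hsq (sqc_eq_one_iff.1 ?_)
        rw [neg_eq_neg_one_mul, sqc_mul (neg_ne_zero.2 one_ne_zero) (mul_ne_zero hQu hQw), hmn, hun]
        rfl
      refine ⟨reflProd Q ![u, w], 1, Or.inl rfl,
        hfam.reflProd_mem hQ h2 (by decide) (by rw [Fin.prod_univ_two]; simpa using hsq2),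
        hfam.reflProd_sq hQ h2, ?_, ?_, fun x hx => ?_⟩
      · rw [one_smul]
        exact reflProd_fixed _ fun i => by fin_cases i <;> simp [polar_comm (⇑Q) u e, polar_comm (⇑Q) w e, heu, hew]
      · rw [one_smul]
        exact reflProd_fixed _ fun i => by fin_cases i <;> simp [polar_comm (⇑Q) u h, polar_comm (⇑Q) w h, hhu, hhw]
      · rw [one_smul]
        have hle : pperp Q e h ≤ Submodule.span F (Set.range ![u, w]) := by
          refine le_of_eq (Submodule.eq_of_le_of_finrank_eq (Submodule.span_le.2 ?_) ?_).symm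
          · rintro _ ⟨i, rfl⟩
            fin_cases i
            · exact hu
            · exact hw
          · rw [hfam.finrank_span h2]; omega
        have := hle hx
        rw [← hfam.negSp_reflProd hQ h2] at this
        exact mem_negSp.1 this
  refine ⟨t, htΩ, htt, ?_⟩
  have hε0 : ε ≠ 0 := by rcases hε with rfl | rfl <;> simp
  set C := Subgroup.centralizer ({t} : Set (orth Q)) with hC
  have hCt : ∀ k ∈ C, k * t = t * k := fun k hk => (Subgroup.mem_centralizer_iff.1 hk t rfl).symm
  have htv : ∀ v, (t : V ≃ₗ[F] V) v = ε • v ↔ v - polar Q h v • e - polar Q e v • h = 0 := by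
    intro v
    have hwv := hh.decomp v
    set x := v - polar Q h v • e - polar Q e v • h with hx
    have hv : v = x + polar Q h v • e + polar Q e v • h := by rw [hx]; abel
    constructor
    · intro hv'
      rw [hv, map_add, map_add, map_smul, map_smul, hte, hth, htW x hwv] at hv'
      have h3 : ((2 : F) * ε) • x = 0 := by linear_combination (norm := module) -hv'
      exact (smul_eq_zero.1 h3).resolve_left (mul_ne_zero h2 hε0)
    · intro h0
      rw [hv, h0, zero_add, map_add, map_smul, map_smul, hte, hth]
      module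
  have hPh : ∀ k ∈ C, ∀ v, (t : V ≃ₗ[F] V) v = ε • v →
      (t : V ≃ₗ[F] V) ((k : V ≃ₗ[F] V) v) = ε • (k : V ≃ₗ[F] V) v := fun k hk v hv => by
    rw [← orth_mul_apply, ← hCt k hk, orth_mul_apply, hv, map_smul]
  have hWk : ∀ k ∈ C, ∀ x ∈ pperp Q e h, (k : V ≃ₗ[F] V) x ∈ pperp Q e h := by
    intro k hk x hx
    have h1 : (t : V ≃ₗ[F] V) ((k : V ≃ₗ[F] V) x) = -(ε • (k : V ≃ₗ[F] V) x) := by
      rw [← orth_mul_apply, ← hCt k hk, orth_mul_apply, htW x hx, map_neg, map_smul]
    set y := (k : V ≃ₗ[F] V) x
    rw [mem_pperp]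
    constructor
    · have := orth_polar t e y
      rw [hte, h1, polar_smul_left, polar_neg_right, polar_smul_right] at this
      rcases hε with rfl | rfl <;> simp only [smul_eq_mul, one_mul, neg_mul, neg_neg, mul_neg] at this <;>
        exact (mul_eq_zero.1 (show (2 : F) * polar Q e y = 0 by linear_combination -this)).resolve_left h2
    · have := orth_polar t h y
      rw [hth, h1, polar_smul_left, polar_neg_right, polar_smul_right] at this
      rcases hε with rfl | rfl <;> simp only [smul_eq_mul, one_mul, neg_mul, neg_neg, mul_neg] at this <;>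
        exact (mul_eq_zero.1 (show (2 : F) * polar Q h y = 0 by linear_combination -this)).resolve_left h2
  -- the possible images of `e`
  have hke : ∀ k ∈ C, ∃ c : F, c ≠ 0 ∧ ((k : V ≃ₗ[F] V) e = c • e ∨ (k : V ≃ₗ[F] V) e = c • h) := by
    intro k hk
    set v := (k : V ≃ₗ[F] V) e
    have hv := (htv v).1 (hPh k hk e hte)
    rw [sub_sub, sub_eq_zero] at hv
    set α := polar Q h v
    set β := polar Q e v
    have hQv : Q v = 0 := by rw [orth_map, he]
    have hv0 : v ≠ 0 := fun h0 => he0 ((k : V ≃ₗ[F] V).injective (h0.trans (map_zero _).symm))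
    have hαβ : α * β = 0 := by
      rw [hv, map_smul_add_smul, he, hh.right, hh.pair] at hQv
      linear_combination hQv
    rcases mul_eq_zero.1 hαβ with h0 | h0
    · refine ⟨β, fun h1 => hv0 ?_, Or.inr ?_⟩ <;> rw [hv] <;> simp [h0, *]
    · refine ⟨α, fun h1 => hv0 ?_, Or.inl ?_⟩ <;> rw [hv] <;> simp [h0, *]
  let q := Nat.card F
  have hq0 : 2 ≤ q := Finite.one_lt_card
  haveI : Fintype (orth Q) := Fintype.ofFinite _
  haveI : Fintype V := Fintype.ofFinite V
  let Cf : Finset (orth Q) := Finset.univ.filter (· ∈ C)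
  let g : orth Q → V × V := fun k => ((k : V ≃ₗ[F] V) e, (k : V ≃ₗ[F] V) u)
  let Se : Finset V := ((Finset.univ.filter fun c : F => c ≠ 0).image fun c => c • e) ∪
    ((Finset.univ.filter fun c : F => c ≠ 0).image fun c => c • h)
  let Su : Finset V := Finset.univ.filter fun v => (∃ s t : F, v = s • u + t • w) ∧ Q v = Q u
  have hSe : Se.card ≤ 2 * (q - 1) := by
    refine (Finset.card_union_le _ _).trans ?_
    have h1 : (Finset.univ.filter fun c : F => c ≠ 0).card = q - 1 := by
      rw [Finset.filter_ne', Finset.card_erase_of_mem (Finset.mem_univ _), Finset.card_univ,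
        ← Nat.card_eq_fintype_card]
    refine (add_le_add Finset.card_image_le Finset.card_image_le).trans ?_
    rw [h1]
    omega
  have hSu : Su.card ≤ q + 1 := by
    rw [← Fintype.card_subtype, ← Nat.card_eq_fintype_card]
    exact card_circle_le hQu huw haniso
  have hspanW : ∀ x ∈ pperp Q e h, ∃ s t : F, x = s • u + t • w := by
    intro x hx
    have hfam : OFam Q ![u, w] := oFam_two hQu hQw huw
    have hle : Submodule.span F (Set.range ![u, w]) = pperp Q e h := by
      refine Submodule.eq_of_le_of_finrank_eq (Submodule.span_le.2 ?_) ?_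
      · rintro _ ⟨i, rfl⟩
        fin_cases i
        · exact hu
        · exact hw
      · rw [hfam.finrank_span h2]; omega
    rw [← hle, Matrix.range_cons, Matrix.range_cons, Matrix.range_empty, Set.union_empty,
      Set.singleton_union, Submodule.mem_span_pair] at hx
    obtain ⟨s, t, hst⟩ := hx
    exact ⟨s, t, hst.symm⟩
  have hmaps : Cf.image g ⊆ Se ×ˢ Su := by
    intro v hv
    obtain ⟨k, hk, rfl⟩ := Finset.mem_image.1 hv
    rw [Finset.mem_filter] at hk
    refine Finset.mem_product.2 ⟨?_, Finset.mem_filter.2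
      ⟨Finset.mem_univ _, hspanW _ (hWk k hk.2 u hu), orth_map k u⟩⟩
    obtain ⟨c, hc, h' | h'⟩ := hke k hk.2
    · exact Finset.mem_union_left _
        (Finset.mem_image.2 ⟨c, Finset.mem_filter.2 ⟨Finset.mem_univ _, hc⟩, h'.symm⟩)
    · exact Finset.mem_union_right _
        (Finset.mem_image.2 ⟨c, Finset.mem_filter.2 ⟨Finset.mem_univ _, hc⟩, h'.symm⟩)
  have hfib : ∀ v ∈ Cf.image g, (Cf.filter fun k => g k = v).card ≤ 2 := by
    intro v hv
    obtain ⟨k₀, hk₀, rfl⟩ := Finset.mem_image.1 hv
    rw [Finset.mem_filter] at hk₀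
    have key : ∀ k ∈ C, (k : V ≃ₗ[F] V) e = e → (k : V ≃ₗ[F] V) u = u →
        (k = 1 ∨ k = refl Q w) := by
      intro k hk h1 h3
      have hkh : (k : V ≃ₗ[F] V) h = h := by
        set v := (k : V ≃ₗ[F] V) h
        have hv := (htv v).1 (hPh k hk h hth)
        rw [sub_sub, sub_eq_zero] at hv
        have hev : polar Q e v = 1 := by rw [← hh.pair, ← orth_polar k e h, h1]
        have hQv : Q v = 0 := by rw [orth_map, hh.right]
        rw [hv, hev, map_smul_add_smul, he, hh.right, hh.pair] at hQv
        rw [hev, show polar Q h v = 0 by linear_combination hQv, zero_smul, zero_add, one_smul] at hv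
        exact hv
      obtain ⟨s, r, hsr⟩ := hspanW _ (hWk k hk w hw)
      have hs : s = 0 := by
        have h5 := orth_polar k u w
        rw [h3, hsr, huw, polar_add_right, polar_smul_right, polar_smul_right, polar_self', huw] at h5
        simpa [h2, hQu] using h5
      rw [hs, zero_smul, zero_add] at hsr
      have hr : r * r = 1 := by
        have h5 := orth_map k w
        rw [hsr, QuadraticMap.map_smul, smul_eq_mul] at h5
        exact mul_right_cancel₀ hQw (by rw [one_mul]; exact h5)
      have hext : ∀ k' : orth Q, (k' : V ≃ₗ[F] V) e = e → (k' : V ≃ₗ[F] V) h = h →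
          (k' : V ≃ₗ[F] V) u = u → (k' : V ≃ₗ[F] V) w = r • w → k = k' := by
        intro k' a1 a2 a3 a4
        refine orth_ext fun v => ?_
        obtain ⟨s', t', hst⟩ := hspanW _ (hh.decomp v)
        have hv : v = s' • u + t' • w + polar Q h v • e + polar Q e v • h := by rw [← hst]; abel
        rw [hv]
        simp only [map_add, map_smul, h1, hkh, h3, hsr, a1, a2, a3, a4]
      rcases mul_self_eq_one_iff.1 hr with h | h
      · exact Or.inl (hext 1 rfl rfl rfl (by rw [h, one_smul]; rfl))
      · refine Or.inr (hext _ (refl_apply_of_ortho (by rw [polar_comm]; exact hew))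
          (refl_apply_of_ortho (by rw [polar_comm]; exact hhw))
          (refl_apply_of_ortho (by rw [polar_comm]; exact huw)) ?_)
        rw [h, neg_one_smul]
        exact refl_apply_self hQw
    refine (Finset.card_le_card (t := ({k₀, k₀ * refl Q w} : Finset (orth Q))) ?_).trans
      Finset.card_le_two
    intro k hk
    rw [Finset.mem_filter, Finset.mem_filter] at hk
    obtain ⟨⟨-, hkC⟩, hgk⟩ := hk
    simp only [g, Prod.mk.injEq] at hgk
    rw [Finset.mem_insert, Finset.mem_singleton]
    have hmem : k₀⁻¹ * k ∈ C := C.mul_mem (C.inv_mem hk₀.2) hkC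
    rcases key _ hmem (by rw [orth_mul_apply, hgk.1, orth_inv_apply_apply])
      (by rw [orth_mul_apply, hgk.2, orth_inv_apply_apply]) with h | h
    · exact Or.inl (inv_mul_eq_one.1 h).symm
    · exact Or.inr (by rw [← h, mul_inv_cancel_left])
  have hcard : Nat.card C ≤ 2 * ((2 * (q - 1)) * (q + 1)) := by
    rw [Nat.card_eq_fintype_card, Fintype.card_subtype]
    refine (Finset.card_le_mul_card_image Cf 2 hfib).trans (Nat.mul_le_mul_left 2 ?_)
    refine (Finset.card_le_card hmaps).trans ?_
    rw [Finset.card_product]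
    exact Nat.mul_le_mul hSe hSu
  have hstd := Or.inl (b := finrank F V ≠ 4) (card_ne_two (F := F) h2)
  let φ := (signPair hQ hstd).domRestrict C
  have hrange : φ.range = ⊤ := by
    obtain ⟨ν, hν⟩ := exists_not_isSquare h2
    have hν0 : ν ≠ 0 := fun h0 => hν (h0 ▸ IsSquare.zero)
    have hmem : ∀ c : F, c ≠ 0 → ((-1 : ℤˣ), sqc c) ∈ φ.range := by
      intro c hc
      have hQc : Q (e - (-c) • h) = c := by rw [hh.map_sub_smul_norm, neg_neg]
      have ht' : (t : V ≃ₗ[F] V) (e - (-c) • h) = ε • (e - (-c) • h) := by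
        rw [map_sub, map_smul, hte, hth]; module
      have hC' : refl Q (e - (-c) • h) ∈ C := by
        rw [hC, Subgroup.mem_centralizer_iff]
        intro x hx
        rw [Set.mem_singleton_iff] at hx
        rw [hx]
        have h5 := refl_conj (Q := Q) t (e - (-c) • h)
        rw [ht', refl_smul hε0] at h5
        exact mul_inv_eq_iff_eq_mul.1 h5
      refine ⟨⟨_, hC'⟩, ?_⟩
      show signPair hQ hstd (refl Q (e - (-c) • h)) = _
      rw [signPair_apply, dick_refl hQ (by rw [hQc]; exact hc), spin_refl (by rw [hQc]; exact hc), hQc]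
    have e1 := hmem 1 one_ne_zero
    have e2 := hmem ν hν0
    rw [sqc_one] at e1
    rw [sqc_eq_neg_one_iff.2 hν] at e2
    refine eq_top_iff.2 fun x _ => ?_
    obtain ⟨a, b⟩ := x
    rcases Int.units_eq_one_or a with rfl | rfl <;> rcases Int.units_eq_one_or b with rfl | rfl
    · exact one_mem _
    · have := mul_mem e1 e2
      simpa using this
    · exact e1
    · exact e2
  have hker : Nat.card {k : orth Q // k ∈ commutator (orth Q) ∧ k * t = t * k} = Nat.card φ.ker := by
    refine Nat.card_congr
      { toFun := fun k => ⟨⟨k.1, Subgroup.mem_centralizer_iff.2 (by rintro _ rfl; exact k.2.2.symm)⟩, ?_⟩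
        invFun := fun k => ⟨k.1.1, ?_, hCt _ k.1.2⟩
        left_inv := fun k => rfl
        right_inv := fun k => rfl }
    · exact (SetLike.ext_iff.1 (commutator_eq_ker hQ hstd) _).1 k.2.1
    · exact (SetLike.ext_iff.1 (commutator_eq_ker hQ hstd) _).2 k.2
  have hprod := φ.ker.card_mul_index
  rw [Subgroup.index_ker, hrange] at hprod
  have h4' : Nat.card (⊤ : Subgroup (ℤˣ × ℤˣ)) = 4 := by
    rw [Subgroup.card_top, Nat.card_prod, Nat.card_eq_fintype_card, Fintype.card_units_int]
  rw [h4'] at hprod
  rw [hker]
  show _ < q ^ 2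
  obtain ⟨r, hr⟩ := Nat.exists_eq_add_of_le hq0
  rw [hr] at hcard ⊢
  rw [show 2 + r - 1 = r + 1 by omega] at hcard
  nlinarith

end Cfsg.Agent.H19.OrthTensor
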