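import Cfsg.Agent.H19.OrthTensor.Small.Mixed
import Cfsg.Agent.H19.OrthTensor.Small.Torus

/-!
Overgroups of `Ω₃(q) ⊗ Ω₄⁻(q)` in `Ω₁₂⁻(q)`: the counting of involutions.
-/

set_option autoImplicit false
set_option linter.unusedSectionVars false

namespace Cfsg.Agent.H19.OrthTensor

open QuadraticMap hiding sq
open Cfsg.Agent.H5 Module

variable {F V A B : Type*} [Field F] [Finite F] [AddCommGroup V] [Module F V] [Finite V]
  [FiniteDimensional F V] [AddCommGroup A] [Module F A] [Finite A] [FiniteDimensional F A]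
  [AddCommGroup B] [Module F B] [Finite B] [FiniteDimensional F B]
  {Q : QuadraticForm F V} {QA : QuadraticForm F A} {QB : QuadraticForm F B}
  {pu : A →ₗ[F] B →ₗ[F] V}

namespace TO

variable (T : TO Q QA QB pu)
include T

variable {M : Subgroup (orth Q)} (S : T.Small M)
include S

/-- An element carrying a rotation of the first factor to one with the same axis is pure. -/
theorem Small.mem_PG_of_rot {g g' : orth QA} (hg : dick g = 1) (hg1 : g ≠ 1)
    (hfix : ∀ x, (g : A ≃ₗ[F] A) x = x → (g' : A ≃ₗ[F] A) x = x) {y : orth Q} (hy : y ∈ M)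
    (hc : T.kL g * y = y * T.kL g') : y ∈ T.PG := by
  obtain ⟨⟨a, haf⟩, ha0', hspan⟩ := finrank_eq_one_iff'.1 (finrank_fixer_three S.a3 hg hg1)
  have ha0 : a ≠ 0 := fun h => ha0' (Subtype.ext h)
  have hga : (g : A ≃ₗ[F] A) a = a := mem_fixer.1 haf
  obtain ⟨b, hb⟩ := exists_polar_eq_one (Q := QA) T.ndA ha0
  have hfixV : ∀ v, (T.kL g : V ≃ₗ[F] V) v = v → v = pu a (T.C' b v) := by
    intro v hv
    rw [← sub_eq_zero]
    refine T.eq_zero_of_C fun ζ => ?_
    have h1 : (g : A ≃ₗ[F] A) (T.C ζ v) = T.C ζ v := by rw [← T.C_kL, hv]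
    obtain ⟨c, hc⟩ := hspan ⟨_, mem_fixer.2 h1⟩
    have hc' : c • a = T.C ζ v := congrArg Subtype.val hc
    have h2 : polar QB (T.C' b v) ζ = c := by
      rw [T.adj', ← T.adj, ← hc', polar_smul_left, hb, smul_eq_mul, mul_one]
    rw [map_sub, T.C_pu, h2, hc', sub_self]
  let Tm : B →ₗ[F] B := (T.C' b).comp (((y : V ≃ₗ[F] V) : V →ₗ[F] V).comp (pu a))
  have hmap : ∀ u, (y : V ≃ₗ[F] V) (pu a u) = pu a (Tm u) := fun u => hfixV _ (by
    rw [← orth_mul_apply, hc, orth_mul_apply, T.kL_pu, hfix a hga])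
  by_cases ha : QA a = 0
  · exact Small.pure_layer_A T S ha0 ha ha0 hy hmap
  refine Small.centralizer_tvec T S ha hy ?_
  have hinj : Function.Injective Tm := by
    refine (injective_iff_map_eq_zero _).2 fun u hu => T.pu_eq_zero_right (x := a) ?_ ha0
    apply (y : V ≃ₗ[F] V).injective
    rw [hmap, hu, map_zero, map_zero]
  have hperp : ∀ x, polar QA a x = 0 → ∀ u,
      (T.kL (tvec QA a) : V ≃ₗ[F] V) ((y : V ≃ₗ[F] V) (pu x u)) = -(y : V ≃ₗ[F] V) (pu x u) := by
    intro x hx u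
    rw [← sub_eq_zero, sub_neg_eq_add]
    refine T.eq_zero_of_C fun ζ => ?_
    obtain ⟨w, rfl⟩ := Finite.surjective_of_injective hinj ζ
    have h1 : polar QA a (T.C (Tm w) ((y : V ≃ₗ[F] V) (pu x u))) = 0 := by
      rw [polar_comm, T.adj, ← hmap, orth_polar, T.form, polar_comm (⇑QA) x a, hx, zero_mul]
    rw [map_add, T.C_kL, tvec_perp h1, neg_add_cancel]
  refine T.orth_ext_pu fun x u => ?_
  set c := polar QA a x / (2 * QA a) with hc'
  have hx : polar QA a (x - c • a) = 0 := by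
    rw [polar_sub_right, polar_smul_right, polar_self', hc', smul_eq_mul,
      div_mul_cancel₀ _ (mul_ne_zero T.two ha), sub_self]
  have hsa : ∀ w, (T.kL (tvec QA a) : V ≃ₗ[F] V) (pu a w) = pu a w := fun w => by
    rw [T.kL_pu, tvec_self ha]
  rw [← sub_add_cancel x (c • a), map_add, map_smul, LinearMap.add_apply, LinearMap.smul_apply,
    orth_mul_apply, orth_mul_apply]
  simp only [map_add, map_smul]
  rw [hsa, hmap, hsa, T.kL_pu, tvec_perp hx, map_neg, LinearMap.neg_apply, map_neg, hperp _ hx]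

/-- In a coset, an involution is determined by the second component. -/
theorem Small.fibre_inj {y₀ z z' : orth Q} (hz : z ∈ M) (hzP : z ∉ T.PG)
    (hz2 : z * z = 1) (hz2' : z' * z' = 1) {g g' : orth QA} {k : orth QB} (hg : dick g = 1)
    (hg' : dick g' = 1) (he : y₀ * z = T.pr (g, k)) (he' : y₀ * z' = T.pr (g', k)) : z = z' := by
  set γ := g⁻¹ * g' with hγ
  have h1 : z * z' = T.kL γ := by
    calc z * z' = z⁻¹ * z' := by rw [inv_eq_of_mul_eq_one_right hz2]
      _ = (y₀ * z)⁻¹ * (y₀ * z') := by group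
      _ = T.kL γ := by
        rw [he, he', ← map_inv, ← map_mul, Prod.inv_mk, Prod.mk_mul_mk, inv_mul_cancel, T.pr_apply,
          map_one, mul_one]
  have hd : dick γ = 1 := by
    have h2 : dick g⁻¹ * dick g = 1 := by rw [← dick_mul_odd T.ndA T.two, inv_mul_cancel, dick_one]
    rw [hγ, dick_mul_odd T.ndA T.two, hg', mul_one]
    rwa [hg, mul_one] at h2
  by_contra hne
  refine hzP (Small.mem_PG_of_rot T S (g := γ) (g' := γ⁻¹) hd (fun h0 => hne ?_) (fun x hx => ?_) hz ?_)
  · rw [h0, map_one] at h1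
    rw [← inv_eq_of_mul_eq_one_right hz2, inv_eq_of_mul_eq_one_right h1]
  · conv_lhs => rw [← hx]
    rw [orth_inv_apply_apply]
  · rw [map_inv, ← h1, mul_inv_rev, inv_eq_of_mul_eq_one_right hz2, inv_eq_of_mul_eq_one_right hz2']
    group

/-- The involutions of an outer coset inject into the possible second components. -/
theorem Small.card_fibre {Z : Set (orth Q)} (hZ : ∀ y ∈ Z, y ∈ M ∧ y ∉ T.PG ∧ y * y = 1)
    (hpair : ∀ y ∈ Z, ∀ z ∈ Z, y * z ∈ T.PG) (P : orth QB → Prop) {y₀ : orth Q} (hy₀ : y₀ ∈ Z)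
    (hP : ∀ z ∈ Z, ∀ g k, dick g = 1 → k ∈ commutator (orth QB) → y₀ * z = T.pr (g, k) → P k) :
    Nat.card Z ≤ Nat.card {k : orth QB // P k} := by
  have hex : ∀ z : Z, ∃ g k, dick g = 1 ∧ k ∈ commutator (orth QB) ∧ y₀ * z = T.pr (g, k) := fun z =>
    Small.dec T S (mul_mem (hZ _ hy₀).1 (hZ _ z.2).1) (hpair _ hy₀ _ z.2)
  choose g k hg hk he using hex
  refine Nat.card_le_card_of_injective (fun z => (⟨k z, hP _ z.2 _ _ (hg z) (hk z) (he z)⟩ :
    {k : orth QB // P k})) fun z z' hzz => Subtype.ext ?_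
  have hkk : k z = k z' := congrArg Subtype.val hzz
  exact Small.fibre_inj T S (hZ _ z.2).1 (hZ _ z.2).2.1 (hZ _ z.2).2.2 (hZ _ z'.2).2.2 (hg z) (hg z')
    (he z) (by rw [he z', hkk])

/-- There are at least `|F|²` involutions `tvec`. -/
theorem Small.card_tvec : Nat.card F ^ 2 ≤
    Nat.card {d : orth Q | ∃ a, QA a ≠ 0 ∧ d = T.kL (tvec QA a)} := by
  classical
  obtain ⟨p, hp0, hp⟩ := H5.exists_singular (Q := QA) T.ndA (Small.hA T S)
  obtain ⟨f, hpf⟩ := exists_hypPair (Q := QA) T.ndA hp0 hp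
  obtain ⟨a, ha, hQa⟩ := exists_anisotropic (hpf.inf_perp T.ndA)
    (by have := hpf.finrank_pperp T.ndA; have := S.a3; omega)
  obtain ⟨hpa, hfa⟩ := mem_pperp.1 ha
  have hfp : polar QA f p = 1 := by rw [polar_comm]; exact hpf.pair
  have hap : polar QA a p = 0 := by rw [polar_comm]; exact hpa
  have haf : polar QA a f = 0 := by rw [polar_comm]; exact hfa
  let vec : F × F → A := fun dy => if dy.1 = 0 then dy.2 • p + a
    else (dy.1 - QA a * dy.2 * dy.2) • p + dy.2 • a + f
  have hne : ∀ dy, QA (vec dy) ≠ 0 := by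
    rintro ⟨d, y⟩
    simp only [vec]
    split_ifs with hd
    · rw [show y • p + a = y • p + (1 : F) • a by rw [one_smul], map_smul_add_smul, hp, hpa]
      simpa using hQa
    · rw [QuadraticMap.map_add (⇑QA), map_smul_add_smul, polar_add_left, polar_smul_left,
        polar_smul_left, hp, hpa, hpf.right, hpf.pair, haf, smul_eq_mul, smul_eq_mul]
      convert hd using 1
      ring
  let φ : F × F → {d : orth Q | ∃ a, QA a ≠ 0 ∧ d = T.kL (tvec QA a)} := fun dy =>
    ⟨T.kL (tvec QA (vec dy)), vec dy, hne dy, rfl⟩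
  have hline : ∀ x x' : A, QA x ≠ 0 → QA x' ≠ 0 → tvec QA x = tvec QA x' → ∃ c : F, x' = c • x := by
    intro x x' hx hx' he
    set c := polar QA x x' / (2 * QA x) with hc
    have hw : polar QA x (x' - c • x) = 0 := by
      rw [polar_sub_right, polar_smul_right, polar_self', hc, smul_eq_mul,
        div_mul_cancel₀ _ (mul_ne_zero T.two hx), sub_self]
    have h1 : (tvec QA x : A ≃ₗ[F] A) ((x' - c • x) + c • x) = -(x' - c • x) + c • x := by
      rw [map_add, tvec_perp hw, map_smul, tvec_self hx]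
    rw [sub_add_cancel, he, tvec_self hx'] at h1
    exact ⟨c, sub_eq_zero.1 ((smul_eq_zero.1
      (show (2 : F) • (x' - c • x) = 0 by linear_combination (norm := module) h1)).resolve_left T.two)⟩
  have hφ : Function.Injective φ := by
    rintro ⟨d, y⟩ ⟨d', y'⟩ he
    have he1 : tvec QA (vec (d, y)) = tvec QA (vec (d', y')) :=
      T.swap.kR_injective (by rw [S.b4]; omega) (congrArg Subtype.val he)
    obtain ⟨c, hc⟩ := hline _ _ (hne _) (hne _) he1
    have e1 := congrArg (polar QA p) hc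
    have e2 := congrArg (polar QA a) hc
    have e3 := congrArg (polar QA f) hc
    by_cases hd : d = 0 <;> by_cases hd' : d' = 0 <;>
      simp only [vec, hd, hd', if_pos, if_false, polar_add_right, polar_smul_right, polar_self', hp,
        hpf.right, hpf.pair, hpa, hfa, hap, haf, hfp, smul_eq_mul, mul_zero, mul_one, add_zero,
        zero_add] at e1 e2 e3
    · have hc1 : c = 1 := mul_right_cancel₀ (mul_ne_zero T.two hQa) (by linear_combination -e2)
      rw [hc1, one_mul] at e3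
      rw [hd, hd', e3]
    · exact absurd e1 one_ne_zero
    · rw [← e1, zero_mul] at e2
      exact absurd e2 (mul_ne_zero T.two hQa)
    · rw [← e1, one_mul] at e2 e3
      have hy : y' = y := mul_right_cancel₀ (mul_ne_zero T.two hQa) e2
      subst hy
      rw [show d' = d by linear_combination e3]
  have := Nat.card_le_card_of_injective φ hφ
  rwa [Nat.card_prod, ← pow_two] at this

/-- The centraliser in `M` of a suitable involution of the second factor is pure. -/
theorem Small.centralizer_kR {t : orth QB} (ht : t ∈ commutator (orth QB))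
    (hsmall : Nat.card {k : orth QB // k ∈ commutator (orth QB) ∧ k * t = t * k} < Nat.card F ^ 2)
    {m : orth Q} (hm : m ∈ M) (hc : m * T.kR t = T.kR t * m) : m ∈ T.PG := by
  set X := M ⊓ Subgroup.centralizer ({T.kR t} : Set (orth Q)) with hX
  have hXt : ∀ x ∈ X, x * T.kR t = T.kR t * x := fun x hx =>
    (Subgroup.mem_centralizer_iff.1 hx.2 (T.kR t) rfl).symm
  set D := {d : orth Q | ∃ a, QA a ≠ 0 ∧ d = T.kL (tvec QA a)}
  refine (le_of_involution_count (Y := X ⊓ T.PG) inf_le_left D ?_ ?_ ?_ ?_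
    (x := m) ⟨hm, Subgroup.mem_centralizer_iff.2 (by rintro _ rfl; exact hc.symm)⟩).2
  · rintro _ ⟨a, ha, rfl⟩
    refine ⟨⟨S.tv a ha, Subgroup.mem_centralizer_iff.2 ?_⟩, T.kL_mem_PG _⟩
    rintro _ rfl
    exact (T.kR_comm _ _).eq
  · rintro _ ⟨a, -, rfl⟩
    rw [← map_mul, tvec_sq, map_one]
  · rintro x hx _ ⟨a, ha, rfl⟩ hxd
    exact ⟨hx, Small.fusion_tvec T S ha hx.1 hxd.2⟩
  · intro Z hZ hpair
    refine lt_of_lt_of_le ?_ (Small.card_tvec T S)
    rcases Z.eq_empty_or_nonempty with rfl | ⟨y₀, hy₀⟩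
    · have := S.q5
      rw [Nat.card_of_isEmpty]
      positivity
    refine lt_of_le_of_lt (Small.card_fibre T S (fun y hy => ⟨(hZ y hy).1.1,
      fun h => (hZ y hy).2.1 ⟨(hZ y hy).1, h⟩, (hZ y hy).2.2⟩) (fun y hy z hz => (hpair y hy z hz).2)
      (fun k => k ∈ commutator (orth QB) ∧ k * t = t * k) hy₀ fun z hz g k hg hk he => ⟨hk, ?_⟩) hsmall
    refine (Small.dec_commute T S hg dick_one (g' := 1) (k := k) (k' := t) ?_).2
    rw [T.pr_apply 1 t, map_one, one_mul, ← he]
    exact hXt _ (mul_mem (hZ y₀ hy₀).1 (hZ z hz).1)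

/-- The pure elements control the fusion of that involution. -/
theorem Small.fusion_kR {t : orth QB} (ht : t ∈ commutator (orth QB)) (htt : t * t = 1)
    (hsmall : Nat.card {k : orth QB // k ∈ commutator (orth QB) ∧ k * t = t * k} < Nat.card F ^ 2)
    {m : orth Q} (hm : m ∈ M) (hc : m * T.kR t * m⁻¹ ∈ T.PG) : m ∈ T.PG := by
  set w := m * T.kR t * m⁻¹ with hw
  obtain ⟨g, k, hg, hk, hgk⟩ :=
    Small.dec T S (mul_mem (mul_mem hm (S.hOver.right t ht)) (inv_mem hm)) hc
  have hw2 : T.pr (g, k) ^ 2 = 1 := by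
    rw [← hgk, conj_pow, pow_two, ← map_mul, htt, map_one, mul_one, mul_inv_cancel]
  obtain ⟨hg2, -⟩ := Small.dec_pow T S hg hw2
  rw [pow_two] at hg2
  obtain ⟨a, ha, hag⟩ : ∃ a, QA a ≠ 0 ∧ tvec QA a * g = g * tvec QA a := by
    by_cases hg1 : g = 1
    · obtain ⟨p, hp0, hp⟩ := H5.exists_singular (Q := QA) T.ndA (Small.hA T S)
      obtain ⟨f, hpf⟩ := exists_hypPair (Q := QA) T.ndA hp0 hp
      exact ⟨p + f, by rw [QuadraticMap.map_add (⇑QA), hp, hpf.right, hpf.pair]; simp,
        by rw [hg1, mul_one, one_mul]⟩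
    · obtain ⟨a, ha, rfl⟩ := exists_tvec_eq T.ndA T.two S.a3 hg hg2 hg1
      exact ⟨a, ha, rfl⟩
  set d := T.kL (tvec QA a)
  have hdw : d * w = w * d := by
    have hgk' : w = T.pr (g, k) := hgk
    rw [hgk', show d = T.pr (tvec QA a, 1) by rw [T.pr_apply, map_one, mul_one], ← map_mul, ← map_mul,
      Prod.mk_mul_mk, Prod.mk_mul_mk, hag, one_mul, mul_one]
  have h1 : m⁻¹ * d * m ∈ T.PG := by
    refine Small.centralizer_kR T S ht hsmall (mul_mem (mul_mem (inv_mem hm) (S.tv a ha)) hm) ?_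
    calc m⁻¹ * d * m * T.kR t = m⁻¹ * (d * w) * m := by rw [hw]; group
      _ = m⁻¹ * (w * d) * m := by rw [hdw]
      _ = T.kR t * (m⁻¹ * d * m) := by rw [hw]; group
  have h2 := Small.fusion_tvec T S ha (inv_mem hm) (by rwa [inv_inv])
  simpa using inv_mem h2

/-- The second components met by an outer involution form a small group. -/
theorem Small.card_conj_components {y₀ : orth Q} (hy₀ : y₀ ∈ M) (hy₀P : y₀ ∉ T.PG) :
    Nat.card {k : orth QB // k ∈ commutator (orth QB) ∧
      ∃ g, dick g = 1 ∧ T.pr (g, k) ∈ M ∧ y₀ * T.pr (g, k) * y₀⁻¹ ∈ T.PG} * Nat.card F ^ 2 ≤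
        Nat.card (commutator (orth QB)) := by
  classical
  obtain ⟨p, hp, hcp⟩ := exists_char F
  let K : Subgroup (orth QB) :=
    { carrier := {k | k ∈ commutator (orth QB) ∧
        ∃ g, dick g = 1 ∧ T.pr (g, k) ∈ M ∧ y₀ * T.pr (g, k) * y₀⁻¹ ∈ T.PG}
      one_mem' := ⟨one_mem _, 1, dick_one, by rw [Prod.mk_one_one, map_one]; exact one_mem _,
        by rw [Prod.mk_one_one, map_one, mul_one, mul_inv_cancel]; exact one_mem _⟩
      mul_mem' := by
        rintro k k' ⟨hk, g, hg, h1, h2⟩ ⟨hk', g', hg', h1', h2'⟩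
        refine ⟨mul_mem hk hk', g * g', by rw [dick_mul_odd T.ndA T.two, hg, hg', mul_one], ?_, ?_⟩
        · rw [← Prod.mk_mul_mk, map_mul]; exact mul_mem h1 h1'
        · rw [← Prod.mk_mul_mk, map_mul]
          have := mul_mem h2 h2'
          simpa [mul_assoc] using this
      inv_mem' := by
        rintro k ⟨hk, g, hg, h1, h2⟩
        refine ⟨inv_mem hk, g⁻¹, ?_, ?_, ?_⟩
        · have h3 : dick g⁻¹ * dick g = 1 := by
            rw [← dick_mul_odd T.ndA T.two, inv_mul_cancel, dick_one]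
          rwa [hg, mul_one] at h3
        · rw [← Prod.inv_mk, map_inv]; exact inv_mem h1
        · rw [← Prod.inv_mk, map_inv]
          have := inv_mem h2
          simpa [mul_assoc] using this }
  show Nat.card K * _ ≤ _
  have hndvd : ¬ p ∣ Nat.card K := by
    intro hdvd
    obtain ⟨⟨k, hkK⟩, hord'⟩ := exists_prime_orderOf_dvd_card' p hdvd
    have hord : orderOf k = p := (Subgroup.orderOf_coe ⟨k, hkK⟩).trans hord'
    obtain ⟨hk, g, hg, h1, h2⟩ := hkK
    have hgd : ∀ m : ℕ, dick (g ^ m) = 1 := fun m => by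
      induction m with
      | zero => rw [pow_zero, dick_one]
      | succ m ih => rw [pow_succ, dick_mul_odd T.ndA T.two, ih, hg, mul_one]
    obtain ⟨j, n, hn, hjn⟩ :=
      Nat.exists_eq_pow_mul_and_not_dvd (orderOf_pos g).ne' p hp.out.one_lt.ne'
    have hkn : k ^ n ≠ 1 := fun h0 => hn (hord ▸ orderOf_dvd_of_pow_eq_one h0)
    have hknp : (k ^ n) ^ p ^ 1 = 1 := by
      rw [pow_one, ← pow_mul, mul_comm, pow_mul, ← hord, pow_orderOf_eq_one, one_pow]
    have hgn : (g ^ n) ^ p ^ (j + 1) = 1 := by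
      rw [← pow_mul, show n * p ^ (j + 1) = p ^ j * n * p by ring, pow_mul, ← hjn, pow_orderOf_eq_one, one_pow]
    obtain ⟨e, η, he0, he, hη, hQη, hke⟩ := exists_eich_of_unipotent T.ndB T.two S.aniso hkn hknp
    set h' := T.pr (g, k) ^ n with hh'
    have hh'e : h' = T.pr (g ^ n, eich QB e η) := by rw [hh', ← map_pow, Prod.pow_mk, hke]
    set h'' := y₀ * h' * y₀⁻¹ with hh''
    have hh''P : h'' ∈ T.PG := by
      rw [hh'', hh', ← conj_pow]
      exact pow_mem h2 n
    obtain ⟨g₂, k₂, hg₂, -, hgk₂⟩ :=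
      Small.dec T S (mul_mem (mul_mem hy₀ (pow_mem h1 n)) (inv_mem hy₀)) hh''P
    change h'' = _ at hgk₂
    obtain ⟨hg₂p, hk₂p⟩ := Small.dec_pow T S hg₂ (N := p ^ (j + 1)) (by
      rw [← hgk₂, hh'', conj_pow, hh'e, ← map_pow, Prod.pow_mk, hgn, pow_succ', pow_mul,
        eich_pow_char he hη, one_pow, Prod.mk_one_one, map_one, mul_one, mul_inv_cancel])
    have hLA := lineAniso_three T.ndA S.a3
    refine hy₀P (Small.mem_PG_of_conj_root T S he0 he hy₀ ?_)
    intro r hr
    have hrM := Small.rootB_mem T S he hr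
    obtain ⟨η', hη', rfl⟩ := hr
    set x := y₀ * T.kR (eich QB e η') * y₀⁻¹ with hx
    have hxM : x ∈ M := mul_mem (mul_mem hy₀ hrM) (inv_mem hy₀)
    have hxh : x * h'' = h'' * x := by
      have hc : T.kR (eich QB e η') * h' = h' * T.kR (eich QB e η') := by
        rw [hh'e, show T.kR (eich QB e η') = T.pr (1, eich QB e η') by
          rw [T.pr_apply, map_one, one_mul], ← map_mul, ← map_mul, Prod.mk_mul_mk, Prod.mk_mul_mk,
          one_mul, mul_one, eich_comm he hη' hη]
      calc x * h'' = y₀ * (T.kR (eich QB e η') * h') * y₀⁻¹ := by rw [hx, hh'']; group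
        _ = y₀ * (h' * T.kR (eich QB e η')) * y₀⁻¹ := by rw [hc]
        _ = h'' * x := by rw [hx, hh'']; group
    rw [hgk₂] at hxh
    by_cases hk₂1 : k₂ = 1
    · subst hk₂1
      rw [T.pr_apply, map_one, mul_one] at hxh
      refine Small.mem_PG_of_rot T S (g := g₂) (g' := g₂) hg₂ (fun h0 => hkn ?_) (fun _ h => h) hxM
        hxh.symm
      have h3 : h'' = 1 := by rw [hgk₂, h0, T.pr_apply, map_one, map_one, mul_one]
      rw [hh'', conj_eq_one_iff] at h3
      have h4 := (T.eq_one_of_pr S.a3 (g := g ^ n) (k := k ^ n) ?_ ?_ (by rw [S.b4]; omega)).2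
      · exact h4
      · exact hgd n
      · rw [hke, ← hh'e, h3]
    · obtain ⟨e', η'', he'0, he', hη'', hQη'', rfl⟩ :=
        exists_eich_of_unipotent T.ndB T.two S.aniso hk₂1 hk₂p
      by_cases hg₂1 : g₂ = 1
      · subst hg₂1
        rw [T.pr_apply, map_one, one_mul] at hxh
        exact Small.pure_B T S he'0 he' hη'' hQη'' he'0 he' hη'' hxM
          (mul_inv_eq_iff_eq_mul.2 hxh)
      · obtain ⟨p₀, a₀, hp0, hps, hpa, hQa, rfl⟩ :=
          exists_eich_of_unipotent T.ndA T.two hLA hg₂1 hg₂p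
        exact Small.centralizer_mixed T S hp0 hps hpa hQa he'0 he' hη'' hQη'' hxM hxh
  obtain ⟨e, he0, he⟩ := H5.exists_singular (Q := QB) T.ndB (Small.hB T S)
  obtain ⟨h, hh⟩ := exists_hypPair (Q := QB) T.ndB he0 he
  rw [← Small.card_pperp T S hh, ← Nat.card_prod]
  refine Nat.card_le_card_of_injective (fun kw : K × pperp QB e h =>
    (⟨(kw.1 : orth QB) * eich QB e kw.2,
      mul_mem kw.1.2.1 (eich_mem_omega T.ndB T.two _ _)⟩ : commutator (orth QB))) ?_
  rintro ⟨k, w⟩ ⟨k', w'⟩ hkw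
  have h1 : (k : orth QB) * eich QB e w = k' * eich QB e w' := congrArg Subtype.val hkw
  have hw := (mem_pperp.1 w.2).1
  have hw' := (mem_pperp.1 w'.2).1
  set u := eich QB e w' * (eich QB e w)⁻¹ with hu
  have hku : ((k'⁻¹ * k : K) : orth QB) = u := by
    rw [Subgroup.coe_mul, Subgroup.coe_inv, hu, eq_mul_inv_iff_mul_eq, mul_assoc, h1,
      inv_mul_cancel_left]
  have hup : (k'⁻¹ * k) ^ p = 1 := Subtype.ext (by
    rw [SubmonoidClass.coe_pow, hku, hu, eich_inv he hw,
      eich_mul he hw' (by rw [polar_neg_right, hw, neg_zero]),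
      eich_pow_char he (by rw [polar_add_right, hw', polar_neg_right, hw, neg_zero, add_zero])]
    rfl)
  have h2 : k'⁻¹ * k = 1 := by
    rw [← orderOf_eq_one_iff]
    exact Nat.eq_one_of_dvd_coprimes ((hp.out.coprime_iff_not_dvd).2 hndvd)
      (orderOf_dvd_of_pow_eq_one hup) (orderOf_dvd_natCard _)
  rw [inv_mul_eq_one] at h2
  subst h2
  exact Prod.ext rfl (Subtype.ext (pperp_eich_injective hh w.2 w'.2 (mul_left_cancel h1)))

/-- All of `M` is pure. -/
theorem Small.le_PG : M ≤ T.PG := by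
  classical
  obtain ⟨t, ht, htt, hsmall⟩ := exists_involution_small T.ndB T.two S.b4 S.aniso
  let conjT : commutator (orth QB) → orth Q := fun k => T.kR ((k : orth QB) * t * (k : orth QB)⁻¹)
  set D := Set.range conjT with hD
  have hbig : Nat.card (commutator (orth QB)) ≤
      Nat.card D * Nat.card {k : orth QB // k ∈ commutator (orth QB) ∧ k * t = t * k} := by
    have hsec : ∀ d : D, ∃ k, conjT k = d := fun d => d.2
    choose r hr using hsec
    let dd : commutator (orth QB) → D := fun k => ⟨conjT k, k, rfl⟩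
    have hcomm : ∀ k, (((r (dd k))⁻¹ * k : commutator (orth QB)) : orth QB) * t =
        t * (((r (dd k))⁻¹ * k : commutator (orth QB)) : orth QB) := by
      intro k
      have h1 : ((r (dd k) : orth QB)) * t * ((r (dd k) : orth QB))⁻¹ = (k : orth QB) * t * (k : orth QB)⁻¹ :=
        T.kR_injective (by rw [S.a3]; omega) (hr (dd k))
      rw [Subgroup.coe_mul, Subgroup.coe_inv]
      calc ((r (dd k) : orth QB))⁻¹ * k * t = ((r (dd k) : orth QB))⁻¹ * ((k : orth QB) * t * (k : orth QB)⁻¹) * k := by group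
        _ = t * (((r (dd k) : orth QB))⁻¹ * k) := by rw [← h1]; group
    rw [← Nat.card_prod]
    refine Nat.card_le_card_of_injective (fun k => (dd k,
      (⟨((r (dd k))⁻¹ * k : commutator (orth QB)), Subtype.prop _, hcomm k⟩ :
        {k : orth QB // k ∈ commutator (orth QB) ∧ k * t = t * k}))) fun k k' hkk => ?_
    obtain ⟨h1, h2⟩ := Prod.ext_iff.1 hkk
    simp only at h1 h2
    have h3 : (r (dd k))⁻¹ * k = (r (dd k'))⁻¹ * k' := Subtype.ext (congrArg Subtype.val h2 :)
    rw [h1] at h3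
    exact mul_left_cancel h3
  intro m hm
  refine (le_of_involution_count (Y := M ⊓ T.PG) inf_le_left D ?_ ?_ ?_ ?_ (x := m) hm).2
  · rintro _ ⟨k, rfl⟩
    exact ⟨S.hOver.right _ (mul_mem (mul_mem k.2 ht) (inv_mem k.2)), T.kR_mem_PG _⟩
  · rintro _ ⟨k, rfl⟩
    rw [← map_mul, show (k : orth QB) * t * (k : orth QB)⁻¹ * (k * t * (k : orth QB)⁻¹) =
      k * (t * t) * (k : orth QB)⁻¹ by group, htt, mul_one, mul_inv_cancel, map_one]
  · rintro x hx _ ⟨k, rfl⟩ hxd
    have h1 : x * T.kR k ∈ T.PG := by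
      refine Small.fusion_kR T S ht htt hsmall (mul_mem hx (S.hOver.right k k.2)) ?_
      have h3 : x * T.kR k * T.kR t * (x * T.kR k)⁻¹ = x * conjT k * x⁻¹ := by
        show _ = x * T.kR ((k : orth QB) * t * (k : orth QB)⁻¹) * x⁻¹
        rw [map_mul, map_mul, map_inv]; group
      rw [h3]; exact hxd.2
    refine ⟨hx, ?_⟩
    have := mul_mem h1 (inv_mem (T.kR_mem_PG k))
    rwa [mul_inv_cancel_right] at this
  · intro Z hZ hpair
    have hpos : 0 < Nat.card (commutator (orth QB)) := Nat.card_pos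
    rcases Z.eq_empty_or_nonempty with rfl | ⟨y₀, hy₀⟩
    · rw [Nat.card_of_isEmpty]
      exact Nat.pos_of_ne_zero fun h0 => by rw [h0, zero_mul] at hbig; omega
    have hy₀M := (hZ y₀ hy₀).1
    have hy₀P : y₀ ∉ T.PG := fun h => (hZ y₀ hy₀).2.1 ⟨hy₀M, h⟩
    have hI := Small.card_fibre T S (fun y hy => ⟨(hZ y hy).1,
      fun h => (hZ y hy).2.1 ⟨(hZ y hy).1, h⟩, (hZ y hy).2.2⟩) (fun y hy z hz => (hpair y hy z hz).2)
      (fun k => k ∈ commutator (orth QB) ∧
        ∃ g, dick g = 1 ∧ T.pr (g, k) ∈ M ∧ y₀ * T.pr (g, k) * y₀⁻¹ ∈ T.PG) hy₀ fun z hz g k hg hk he => by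
        refine ⟨hk, g, hg, he ▸ mul_mem hy₀M (hZ z hz).1, ?_⟩
        have h3 : y₀ * T.pr (g, k) * y₀⁻¹ = (y₀ * z)⁻¹ := by
          rw [← he, mul_inv_rev, inv_eq_of_mul_eq_one_right (hZ y₀ hy₀).2.2,
            inv_eq_of_mul_eq_one_right (hZ z hz).2.2, ← mul_assoc, (hZ y₀ hy₀).2.2, one_mul]
        rw [h3]
        exact inv_mem (hpair y₀ hy₀ z hz).2
    have hK := Small.card_conj_components T S hy₀M hy₀P
    have hsq := (Nat.mul_le_mul_right (Nat.card F ^ 2) hI).trans (hK.trans hbig)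
    by_contra hle
    rw [not_lt] at hle
    have h4 : Nat.card D = 0 := by nlinarith
    rw [h4, zero_mul] at hbig
    omega

end TO

/-- An overgroup in `Ω` of `Ω(A) ⊗ Ω(B)` for `A` of dimension three and `B` of dimension four and
minus type contains `Ω` or consists of pure elements. -/
theorem small_tensor (T : TO Q QA QB pu) {M : Subgroup (orth Q)} (a3 : finrank F A = 3)
    (b4 : finrank F B = 4) (aniso : LineAniso QB) (q5 : 5 ≤ Nat.card F) (hOver : T.Over M)
    (tv : ∀ v, QA v ≠ 0 → T.kL (tvec QA v) ∈ M) (hOmega : M ≤ commutator (orth Q)) :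
    commutator (orth Q) ≤ M ∨ ∀ m ∈ M, ∃ g k, dick g = 1 ∧ k ∈ commutator (orth QB) ∧
      m = T.kL g * T.kR k := by
  have hV : 5 ≤ finrank F V := by rw [T.finrank_mul, a3, b4]; omega
  by_cases hgood : T.NoLayer M
  · by_cases hgood' : T.swap.NoLayer M
    · exact Or.inr fun m hm =>
        TO.Small.dec T ⟨a3, b4, aniso, q5, hOver, tv, hOmega, hgood, hgood'⟩ hm
          (TO.Small.le_PG T ⟨a3, b4, aniso, q5, hOver, tv, hOmega, hgood, hgood'⟩ hm)
    · left
      simp only [TO.NoLayer, not_forall] at hgood'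
      obtain ⟨e, he0, he, G, hG, hG0⟩ := hgood'
      exact T.swap.commutator_le_of_layer (TO.Over.swap T hOver) (by rw [b4]; omega) (by rw [a3])
        (fun _ p r hp0 hp hr hpr => mem_span_of_perp_singular T.ndB aniso hp0 hp hpr hr)
        hV he he0 hG hG0
  · left
    simp only [TO.NoLayer, not_forall] at hgood
    obtain ⟨e, he0, he, G, hG, hG0⟩ := hgood
    exact T.commutator_le_of_layer hOver (by rw [a3]) (by rw [b4]; omega)
      (notPlusFour_of_ne (by rw [a3]; omega)) hV he he0 hG hG0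

end Cfsg.Agent.H19.OrthTensor
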