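import Cfsg.Agent.H19.OrthTensor.Small.Main
import Cfsg.Agent.H50.TensorO.Maximal

/-!
The stabiliser of a decomposition `O₃(q) ⊗ O₄⁻(q)` is maximal in `Ω₁₂⁻(q)`.
-/

set_option autoImplicit false
set_option linter.unusedSectionVars false

namespace Cfsg.Agent.H19.OrthTensor

open QuadraticMap hiding sq
open Cfsg.Agent.H5 Module
open scoped Matrix

variable {ι : Type} [Fintype ι] [DecidableEq ι] {F : Type*} [Field F] [Finite F]

/-- The stabiliser of the tensor decomposition into dimensions three and four (minus type) is maximal. -/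
theorem omega_tensor_small_maximal [Fintype F] (Q : QuadraticForm F (ι → F)) {f : (ι → F) → F} (hf : ⇑Q = f)
    (h2 : (2 : F) ≠ 0) (hQ : (polarBilin Q).Nondegenerate) (h5 : 5 ≤ Fintype.card F)
    (e : ι ≃ Fin 3 × Fin 4) (P : GL ι F) (f₁ : (Fin 3 → F) → (Fin 3 → F) → F)
    (f₂ : (Fin 4 → F) → (Fin 4 → F) → F) (hf₁ : Cfsg.Geo.IsSymmetricForm f₁)
    (hf₂ : Cfsg.Geo.IsSymmetricForm f₂)
    (hm : ¬ Cfsg.Geo.IsPlusTypeOn (fun v : Fin 4 → F => f₂ v v) ⊤)
    (hT : Cfsg.Geo.IsTensorFormStructure id (QuadraticMap.polar f) f₁ f₂ e P) :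
    Cfsg.Geo.IsMaximalIn (Cfsg.Geo.omegaGL f)
      (Cfsg.Geo.tensorProductSubgroup 3 4 e P ⊓ Cfsg.Geo.omegaGL f) := by
  classical
  haveI : Finite (ι → F) := Pi.finite
  obtain ⟨c, hc, hT⟩ := hT
  obtain ⟨qA, hAn, hAp, -⟩ := H50.TensorO.exists_quad h2 hf₁ hc
  obtain ⟨qB, hBn, hBp, hBv⟩ := H50.TensorO.exists_quad h2 hf₂ one_ne_zero
  simp only [one_mul] at hBp
  set pu : (Fin 3 → F) →ₗ[F] (Fin 4 → F) →ₗ[F] (ι → F) :=
    (H1.TensorNM.pure).compr₂ (H1.TensorNM.tensorEquiv e P).toLinearMap with hpu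
  have hpu' : ∀ x u, pu x u = H1.TensorNM.tensorEquiv e P (H1.TensorNM.pure x u) := fun x u => rfl
  have hs : ∀ {k : ℕ} {g : (Fin k → F) → (Fin k → F) → F}, Cfsg.Geo.IsSymmetricForm g →
      H1.TensorNM.Sesq (RingHom.id F) 1 g := fun hg => ⟨hg.bilinear.add_left, hg.bilinear.smul_left,
    fun x y => by rw [hg.symm y x, RingHom.id_apply, one_mul]⟩
  have form : ∀ x u y v, polar Q (pu x u) (pu y v) = polar qA x y * polar qB u v := by
    intro x u y v
    rw [hf, hpu', hpu', H1.TensorNM.tensorEquiv_apply, H1.TensorNM.tensorEquiv_apply, hT, hAp, hBp]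
    show c * Cfsg.Geo.formOfGram (RingHom.id F) _ _ _ = _
    rw [H1.TensorNM.gram_pure (hs hf₁) (hs hf₂), mul_assoc]
  have hgen : ∀ φ : (ι → F) →ₗ[F] F, (∀ x u, φ (pu x u) = 0) → φ = 0 := fun φ hφ => LinearMap.ext fun v => by
    obtain ⟨X, rfl⟩ := (H1.TensorNM.tensorEquiv e P).surjective v
    exact LinearMap.congr_fun (H25.GeoLists.pu_ext (f := φ.comp (H1.TensorNM.tensorEquiv e P).toLinearMap) (g := 0)
      fun x z => hφ x z) X
  have hext : ∀ k k' : orth Q, (∀ x u, (k : (ι → F) ≃ₗ[F] (ι → F)) (pu x u) = (k' : (ι → F) ≃ₗ[F] (ι → F)) (pu x u)) →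
      k = k' := fun k k' hk => orth_ext fun v => funext fun i => by
    have := LinearMap.congr_fun (hgen ((LinearMap.proj i).comp
      ((k : (ι → F) ≃ₗ[F] (ι → F)).toLinearMap - (k' : (ι → F) ≃ₗ[F] (ι → F)).toLinearMap))
      (fun x u => by simp [hk x u])) v
    simpa [sub_eq_zero] using this
  have hex : ∀ (g : orth qA) (h : orth qB), ∃ k : orth Q, ∀ x u,
      (k : (ι → F) ≃ₗ[F] (ι → F)) (pu x u) =
        pu ((g : (Fin 3 → F) ≃ₗ[F] (Fin 3 → F)) x) ((h : (Fin 4 → F) ≃ₗ[F] (Fin 4 → F)) u) := by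
    intro g h
    obtain ⟨K, -, hK⟩ := H25.GeoLists.exists_pure_elem e P g.1.toLinearMap h.1.toLinearMap g.1.injective h.1.injective
    let L : (ι → F) →ₗ[F] (ι → F) := Matrix.mulVecLin (K : Matrix ι ι F)
    have hLinj : Function.Injective L := Matrix.mulVec_injective_iff_isUnit.2 K.isUnit
    let Le := LinearEquiv.ofInjectiveEndo L hLinj
    have hLe : ∀ x u, Le (pu x u) = pu ((g : (Fin 3 → F) ≃ₗ[F] _) x) ((h : (Fin 4 → F) ≃ₗ[F] _) u) :=
      fun x u => hK x u
    have hp : ∀ v w, polar Q (Le v) (Le w) = polar Q v w := by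
      intro v
      have h1 : ∀ x u w, polar Q (Le (pu x u)) (Le w) = polar Q (pu x u) w := by
        intro x u w
        have := LinearMap.congr_fun (hgen ((polarBilin Q (Le (pu x u))).comp Le.toLinearMap - polarBilin Q (pu x u))
          fun y t => by simp [hLe, form, orth_polar]) w
        simpa [sub_eq_zero] using this
      intro w
      have := LinearMap.congr_fun (hgen ((polarBilin Q (Le w)).comp Le.toLinearMap - polarBilin Q w)
        fun y t => by
          simp only [LinearMap.sub_apply, LinearMap.comp_apply, LinearEquiv.coe_coe, polarBilin_apply_apply]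
          rw [polar_comm, h1, polar_comm, sub_self]) v
      simp only [LinearMap.sub_apply, LinearMap.comp_apply, LinearEquiv.coe_coe, polarBilin_apply_apply,
        LinearMap.zero_apply, sub_eq_zero] at this
      rw [polar_comm, this, polar_comm]
    refine ⟨⟨Le, mem_orth.2 fun v => ?_⟩, hLe⟩
    have := hp v v
    rw [polar_self', polar_self'] at this
    exact mul_left_cancel₀ h2 this
  choose Ψ hΨ using hex
  let kL : orth qA →* orth Q :=
    { toFun := fun g => Ψ g 1
      map_one' := hext _ _ fun x u => hΨ _ _ x u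
      map_mul' := fun g g' => hext _ _ fun x u => by
        rw [orth_mul_apply, hΨ, hΨ, hΨ, orth_mul_apply]
        rfl }
  let kR : orth qB →* orth Q :=
    { toFun := fun h => Ψ 1 h
      map_one' := hext _ _ fun x u => hΨ _ _ x u
      map_mul' := fun g g' => hext _ _ fun x u => by
        rw [orth_mul_apply, hΨ, hΨ, hΨ, orth_mul_apply]
        rfl }
  let T : TO Q qA qB pu :=
    { C := LinearMap.mk₂ F (fun u v => (LinearMap.BilinForm.toDual (polarBilin qA) hAn).symm
        ((polarBilin Q v).comp (pu.flip u)))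
        (fun u u' v => by simp only [map_add, LinearMap.comp_add])
        (fun r u v => by simp only [map_smul, LinearMap.comp_smul])
        (fun u v v' => by simp only [map_add, LinearMap.add_comp])
        (fun r u v => by simp only [map_smul, LinearMap.smul_comp])
      C' := LinearMap.mk₂ F (fun x v => (LinearMap.BilinForm.toDual (polarBilin qB) hBn).symm
        ((polarBilin Q v).comp (pu x)))
        (fun u u' v => by simp only [map_add, LinearMap.comp_add])
        (fun r u v => by simp only [map_smul, LinearMap.comp_smul])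
        (fun u v v' => by simp only [map_add, LinearMap.add_comp])
        (fun r u v => by simp only [map_smul, LinearMap.smul_comp])
      kR := kR
      kL := kL
      two := h2
      ndV := hQ
      ndA := hAn
      ndB := hBn
      form := form
      adj := fun u v x =>
        LinearMap.BilinForm.apply_toDual_symm_apply (hB := hAn) ((polarBilin Q v).comp (pu.flip u)) x
      adj' := fun x v u =>
        LinearMap.BilinForm.apply_toDual_symm_apply (hB := hBn) ((polarBilin Q v).comp (pu x)) u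
      span := fun v hv => hQ.1 v fun y => LinearMap.congr_fun (hgen (polarBilin Q v) hv) y
      kR_pu := fun k x u => hΨ 1 k x u
      kL_pu := fun g x u => hΨ g 1 x u }
  have a3 : finrank F (Fin 3 → F) = 3 := by simp
  have b4 : finrank F (Fin 4 → F) = 4 := by simp
  set S := Cfsg.Geo.tensorProductSubgroup 3 4 e P
  have hS : ∀ g : orth Q, toGLHom Q hf g ∈ S ↔ IsPureT pu g := by
    intro g
    constructor
    · intro h
      obtain ⟨a, b, hab⟩ := H1.TensorNM.exists_action e P _ h
      exact ⟨a, b, fun x u => by rw [← toGLHom_mulVec Q hf]; exact hab x u⟩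
    · rintro ⟨a, b, hab⟩
      exact H25.GeoLists.mem_of_pure_action (by omega) (by omega) e P _ a b fun x u => by
        rw [toGLHom_mulVec]; exact hab x u
  have aniso : LineAniso qB := by
    intro w h x hh hx hx0
    by_contra hne
    refine hm ⟨Submodule.span F {w, x}, le_top, ?_, ?_⟩
    · intro v hv
      obtain ⟨s, t, rfl⟩ := Submodule.mem_span_pair.1 hv
      have hq : qB (s • w + t • x) = 0 := by
        rw [map_smul_add_smul, hh.left, hx0, (mem_pperp.1 hx).1]
        simp
      rw [hBv, one_mul, mul_eq_zero] at hq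
      exact hq.resolve_left (inv_ne_zero h2)
    · have hi : LinearIndependent F ![w, x] := by
        rw [LinearIndependent.pair_iff' hh.ne_zero]
        intro a ha
        refine hne ?_
        have h1 := (mem_pperp.1 hx).2
        rw [← ha, polar_smul_right, polar_comm, hh.pair, smul_eq_mul, mul_one] at h1
        rw [← ha, h1, zero_smul]
      have hr := finrank_span_eq_card hi
      rw [Matrix.range_cons, Matrix.range_cons, Matrix.range_empty, Set.union_empty, Set.singleton_union] at hr
      rw [hr, finrank_top, b4]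
      simp
  have hV : 3 ≤ finrank F (ι → F) := by rw [T.finrank_mul, a3, b4]; omega
  refine isMaximalIn_omegaGL Q hf S ?_ ?_
  · by_contra! hall
    obtain ⟨p, hp0, hp⟩ := H5.exists_singular (Q := qA) hAn (by omega)
    obtain ⟨p', hpp⟩ := exists_hypPair (Q := qA) hAn hp0 hp
    obtain ⟨a, ha, hQa⟩ := exists_anisotropic (hpp.inf_perp hAn)
      (by have := hpp.finrank_pperp hAn; omega)
    obtain ⟨w, hw0, hw⟩ := H5.exists_singular (Q := qB) hBn (by omega)
    obtain ⟨h, hh⟩ := exists_hypPair (Q := qB) hBn hw0 hw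
    set v := pu p h + pu a w with hv
    have hQv : Q v = 0 := by
      rw [hv, QuadraticMap.map_add (⇑Q), T.Q_pu, T.Q_pu, hp, hw, form, (mem_pperp.1 ha).1]
      simp
    have hnpure : ∀ x u, v ≠ pu x u := by
      intro x u he
      have e1 := congrArg (T.C w) he
      have e2 := congrArg (T.C h) he
      rw [hv, map_add, T.C_pu, T.C_pu, T.C_pu, polar_comm (⇑qB) h w, hh.pair, polar_self', hw] at e1
      rw [hv, map_add, T.C_pu, T.C_pu, T.C_pu, polar_self', hh.right, hh.pair] at e2
      simp at e1 e2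
      have hp'x : polar qB u w * polar qA p' x = 1 := by
        have := congrArg (polar qA p') e1
        rwa [polar_smul_right, polar_comm (⇑qA) p' p, hpp.pair, smul_eq_mul, eq_comm] at this
      have ha'x : polar qB u h * polar qA p' x = 0 := by
        have := congrArg (polar qA p') e2
        rwa [polar_smul_right, (mem_pperp.1 ha).2, smul_eq_mul, eq_comm] at this
      rw [(mul_eq_zero.1 ha'x).resolve_right (right_ne_zero_of_mul_eq_one hp'x), zero_smul] at e2
      exact hQa (by rw [e2, QuadraticMap.map_zero])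
    have hv0 : v ≠ 0 := fun h0 => hnpure 0 0 (by rw [h0, map_zero])
    have hpw0 : pu p w ≠ 0 := fun h0 => hp0 (T.pu_eq_zero_left h0 hw0)
    have hpwQ : Q (pu p w) = 0 := by rw [T.Q_pu, hp, zero_mul, mul_zero]
    obtain ⟨z, hz⟩ := exists_hypPair (Q := Q) hQ hpw0 hpwQ
    obtain ⟨k, hk, t, ht, hkt⟩ := exists_pairGroup_map hQ hV hz hv0 hQv
    obtain ⟨G, K, hGK⟩ := (hS k⁻¹).1 (hall _ (inv_mem (pairGroup_le_omega hQ h2 _ _ hk)))
    refine hnpure (t • G p) (K w) ?_
    rw [map_smul, LinearMap.smul_apply, ← hGK, ← map_smul, ← hkt, orth_inv_apply_apply]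
  · intro M hM g hgM hgΩ hgS
    set M' := M ⊓ commutator (orth Q) with hM'
    have hmem : ∀ x : orth Q, x ∈ commutator (orth Q) → IsPureT pu x → x ∈ M' := fun x hx hp =>
      ⟨hM x hx ((hS x).2 hp), hx⟩
    have hOver : T.Over M' :=
      ⟨fun k hk => hmem _ (T.kR_mem hk) (T.isPure_kR k),
        fun k hk => hmem _ (T.kL_mem hk)
          ⟨(k : (Fin 3 → F) ≃ₗ[F] (Fin 3 → F)).toLinearMap, LinearMap.id, T.kL_pu k⟩⟩
    have htv : ∀ v, qA v ≠ 0 → T.kL (tvec qA v) ∈ M' := fun v hv => by
      refine hmem _ ?_ ⟨(tvec qA v : (Fin 3 → F) ≃ₗ[F] (Fin 3 → F)).toLinearMap, LinearMap.id, T.kL_pu _⟩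
      have hd : dick (tvec qA v) = 1 := by
        rw [tvec, dick_mul_odd hAn h2, dick_refl hAn hv, dick, rk_negOne h2, a3]
        decide
      obtain ⟨δ, hδ⟩ := T.swap.sign_kR (by rw [b4]; omega)
      obtain ⟨h1, h3⟩ := hδ (tvec qA v)
      refine (mem_commutator_iff hQ (Or.inl (card_ne_two h2))).2 ⟨?_, ?_⟩
      · rw [show T.kL (tvec qA v) = T.swap.kR (tvec qA v) from rfl, h1, hd, one_pow]
      · rw [show T.kL (tvec qA v) = T.swap.kR (tvec qA v) from rfl, h3, if_pos hd, one_mul, b4]
        rcases Int.units_eq_one_or (spin qA (tvec qA v)) with h | h <;> rw [h] <;> decide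
    rcases small_tensor T a3 b4 aniso (by rwa [Nat.card_eq_fintype_card]) hOver htv inf_le_right with h | h
    · exact h.trans inf_le_left
    · obtain ⟨g₁, k₁, -, -, rfl⟩ := h g ⟨hgM, hgΩ⟩
      refine absurd ((hS _).2 ⟨(g₁ : (Fin 3 → F) ≃ₗ[F] (Fin 3 → F)).toLinearMap,
        (k₁ : (Fin 4 → F) ≃ₗ[F] (Fin 4 → F)).toLinearMap, fun x u => ?_⟩) hgS
      rw [orth_mul_apply, T.kR_pu, T.kL_pu]
      rfl

end Cfsg.Agent.H19.OrthTensor
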