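import Cfsg.Agent.H19.OrthTensor.Small.Centralizer

/-!
The centraliser of a product of two root elements, one from each factor, is pure.
-/

set_option autoImplicit false
set_option linter.unusedSectionVars false

namespace Cfsg.Agent.H19.OrthTensor

open QuadraticMap hiding sq
open Cfsg.Agent.H5 Module

variable {F V A B : Type*} [Field F] [Finite F] [AddCommGroup V] [Module F V] [Finite V]
  [FiniteDimensional F V] [AddCommGroup A] [Module F A] [Finite A] [FiniteDimensional F A]
  [AddCommGroup B] [Module F B] [Finite B] [FiniteDimensional F B]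
  {Q : QuadraticForm F V} {QA : QuadraticForm F A} {QB : QuadraticForm F B}
  {pu : A →ₗ[F] B →ₗ[F] V}

/-- Equal root elements stay equal after scaling. -/
theorem eich_scale (hQ : (polarBilin QA).Nondegenerate) (h2 : (2 : F) ≠ 0) (hA : LineAniso QA)
    {e x y : A} (he0 : e ≠ 0) (he : QA e = 0) (hx : polar QA e x = 0) (hy : polar QA e y = 0)
    (hxy : eich QA e x = eich QA e y) (τ : F) : eich QA e (τ • x) = eich QA e (τ • y) := by
  have hd : polar QA e (x - y) = 0 := by rw [polar_sub_right, hx, hy, sub_zero]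
  have h0 : QA (x - y) = 0 := by
    by_contra hne
    refine eich_ne_one h2 he0 he hd hQ hne ?_
    rw [sub_eq_add_neg, ← eich_mul he hx (by rw [polar_neg_right, hy, neg_zero]), ← eich_inv he hy, hxy,
      mul_inv_cancel]
  obtain ⟨c, hc⟩ := Submodule.mem_span_singleton.1 (mem_span_of_perp_singular hQ hA he0 he hd h0)
  rw [show τ • x = τ • y + (τ * c) • e by rw [mul_smul, hc]; module,
    eich_add_smul he (by rw [polar_smul_right, hy, smul_zero])]

/-- An isometry fixing a singular vector and the quotient of its orthogonal is a root element. -/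
theorem eich_of_trivial (hQ : (polarBilin QA).Nondegenerate) {k : orth QA} {e h : A}
    (hh : HypPair QA e h) (hke : (k : A ≃ₗ[F] A) e = e)
    (hW : ∀ w ∈ pperp QA e h, ∃ c : F, (k : A ≃ₗ[F] A) w = w + c • e) :
    ∃ a, polar QA e a = 0 ∧ k = eich QA e a := by
  have hh' : HypPair QA e ((k : A ≃ₗ[F] A) h) :=
    ⟨hh.left, by rw [orth_map, hh.right], by rw [← hh.pair, ← orth_polar k e h, hke]⟩
  obtain ⟨a, ha, hah⟩ := exists_eich_map hh hh'
  obtain ⟨hea, -⟩ := mem_pperp.1 ha
  refine ⟨a, hea, ?_⟩
  have h1 : (eich QA e a)⁻¹ * k = 1 := by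
    set k' := (eich QA e a)⁻¹ * k with hk'
    have hk'e : (k' : A ≃ₗ[F] A) e = e := by
      rw [hk', orth_mul_apply, hke]
      exact (eich QA e a : A ≃ₗ[F] A).injective (by rw [orth_apply_inv_apply, eich_apply_self hh.left hea])
    have hk'h : (k' : A ≃ₗ[F] A) h = h := by
      rw [hk', orth_mul_apply, ← hah, orth_inv_apply_apply]
    refine orth_ext fun v => ?_
    have hv := hh.decomp v
    set w := v - polar QA h v • e - polar QA e v • h
    have hkw : (k' : A ≃ₗ[F] A) w = w := by
      obtain ⟨c, hc⟩ := hW w hv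
      obtain ⟨d, hd⟩ : ∃ d : F, (k' : A ≃ₗ[F] A) w = w + d • e := by
        refine ⟨c + polar QA a w, ?_⟩
        rw [hk', orth_mul_apply, hc, map_add, map_smul, eich_inv hh.left hea,
          eich_apply_self hh.left (by rw [polar_neg_right, hea, neg_zero]),
          eich_apply hh.left (by rw [polar_neg_right, hea, neg_zero]), (mem_pperp.1 hv).1, polar_neg_left,
          zero_smul, mul_zero, zero_smul]
        module
      have h2 := orth_polar k' w h
      rw [hd, hk'h, polar_add_left, polar_smul_left, hh.pair] at h2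
      rw [hd, show d = 0 by simpa using h2, zero_smul, add_zero]
    have hv' : v = w + polar QA h v • e + polar QA e v • h := by simp only [w]; abel
    rw [hv', map_add, map_add, map_smul, map_smul, hkw, hk'e, hk'h]
    rfl
  exact (inv_mul_eq_one.1 h1).symm

namespace TO

variable (T : TO Q QA QB pu)
include T

/-- Products of root elements of two fixed lines. -/
def rootPair {p : A} (hp : QA p = 0) {e : B} (he : QB e = 0) : Subgroup (orth Q) where
  carrier := {m | ∃ a η, polar QA p a = 0 ∧ polar QB e η = 0 ∧ m = T.pr (eich QA p a, eich QB e η)}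
  one_mem' := ⟨0, 0, polar_zero_right .., polar_zero_right .., by rw [eich_zero, eich_zero]; exact (map_one T.pr).symm⟩
  mul_mem' := by
    rintro _ _ ⟨a, η, ha, hη, rfl⟩ ⟨a', η', ha', hη', rfl⟩
    exact ⟨a + a', η + η', by rw [polar_add_right, ha, ha', add_zero],
      by rw [polar_add_right, hη, hη', add_zero],
      by rw [← map_mul, Prod.mk_mul_mk, eich_mul hp ha ha', eich_mul he hη hη']⟩
  inv_mem' := by
    rintro _ ⟨a, η, ha, hη, rfl⟩
    exact ⟨-a, -η, by rw [polar_neg_right, ha, neg_zero], by rw [polar_neg_right, hη, neg_zero],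
      by rw [← map_inv, Prod.inv_mk, eich_inv hp ha, eich_inv he hη]⟩

variable {M : Subgroup (orth Q)} (S : T.Small M)
include S

/-- The centraliser in `M` of a mixed unipotent element is pure. -/
theorem Small.centralizer_mixed {p₀ a : A} {e η : B} (hp0 : p₀ ≠ 0) (hp : QA p₀ = 0)
    (ha : polar QA p₀ a = 0) (hQa : QA a ≠ 0) (he0 : e ≠ 0) (he : QB e = 0) (hη : polar QB e η = 0)
    (hQη : QB η ≠ 0) {m : orth Q} (hm : m ∈ M)
    (hc : m * T.pr (eich QA p₀ a, eich QB e η) = T.pr (eich QA p₀ a, eich QB e η) * m) : m ∈ T.PG := by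
  obtain ⟨p, hpp, hcp⟩ := exists_char F
  have hLA := lineAniso_three T.ndA S.a3
  set u := eich QA p₀ a with hu
  set r := eich QB e η with hr
  have hdu : dick u = 1 := dick_omega T.ndA T.two (eich_mem_omega T.ndA T.two _ _)
  set h₀ := T.pr (u, r) with hh₀
  set X := M ⊓ Subgroup.centralizer ({h₀} : Set (orth Q)) with hX
  set U := T.rootPair hp he
  have hUX : U ≤ X := by
    rintro _ ⟨a', η', ha', hη', rfl⟩
    refine ⟨?_, Subgroup.mem_centralizer_iff.2 ?_⟩
    · rw [T.pr_apply]
      exact mul_mem (S.hOver.left _ (eich_mem_omega T.ndA T.two _ _))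
        (S.hOver.right _ (eich_mem_omega T.ndB T.two _ _))
    · rintro _ rfl
      rw [hh₀, ← map_mul, ← map_mul, Prod.mk_mul_mk, Prod.mk_mul_mk, eich_comm hp ha ha',
        eich_comm he hη hη']
  have hUp : IsPGroup p U := by
    rintro ⟨x, a', η', ha', hη', rfl⟩
    refine ⟨1, Subtype.ext ?_⟩
    show T.pr (eich QA p₀ a', eich QB e η') ^ p ^ 1 = 1
    rw [pow_one, ← map_pow, Prod.pow_mk, eich_pow_char hp ha', eich_pow_char he hη', Prod.mk_one_one,
      map_one]
  have hUPG : U ≤ T.PG := by
    rintro _ ⟨a', η', -, -, rfl⟩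
    exact T.pr_mem _ _
  set W := T.rootB he
  have hWU : W ≤ U := by
    rintro _ ⟨η', hη', rfl⟩
    exact ⟨0, η', polar_zero_right .., hη', by rw [eich_zero, T.pr_apply, map_one, one_mul]⟩
  have hpure : ∀ n ∈ X, (∀ x, x ∈ U ↔ n * x * n⁻¹ ∈ U) → n ∈ T.PG := fun n hnX hnU =>
    Small.mem_PG_of_conj_root T S he0 he hnX.1 fun x hx => hUPG ((hnU x).1 (hWU hx))
  have hdec : ∀ n ∈ X, n ∈ T.PG → ∃ g k, dick g = 1 ∧ k ∈ commutator (orth QB) ∧
      n = T.pr (g, k) ∧ g * u = u * g ∧ k * r = r * k := by
    intro n hnX hnP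
    obtain ⟨g, k, hg, hk, rfl⟩ := Small.dec T S hnX.1 hnP
    obtain ⟨h1, h2⟩ := Small.dec_commute T S hg hdu (k := k) (k' := r)
      (Subgroup.mem_centralizer_iff.1 hnX.2 h₀ rfl).symm
    exact ⟨g, k, hg, hk, rfl, h1, h2⟩
  have hn : ∀ n ∈ X, (∃ j : ℕ, n ^ p ^ j = 1) → (∀ x, x ∈ U ↔ n * x * n⁻¹ ∈ U) → n ∈ U := by
    rintro n hnX ⟨j, hj⟩ hnU
    obtain ⟨g, k, hg, -, rfl, hgu, hkr⟩ := hdec n hnX (hpure n hnX hnU)
    obtain ⟨hgp, hkp⟩ := Small.dec_pow T S hg hj
    obtain ⟨a', ha', rfl⟩ := eich_of_commute T.ndA T.two hLA hgp hp0 hp ha hQa hgu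
    obtain ⟨η', hη', rfl⟩ := eich_of_commute T.ndB T.two S.aniso hkp he0 he hη hQη hkr
    exact ⟨a', η', ha', hη', rfl⟩
  have hc' : ∀ n ∈ X, (∀ x, x ∈ U ↔ n * x * n⁻¹ ∈ U) → ∀ x ∈ U, n * x = x * n := by
    rintro n hnX hnU _ ⟨a', η', ha', hη', rfl⟩
    obtain ⟨g, k, hg, hk, rfl, hgu, hkr⟩ := hdec n hnX (hpure n hnX hnU)
    rw [← map_mul, ← map_mul, Prod.mk_mul_mk, Prod.mk_mul_mk]
    congr 1
    refine Prod.ext ?_ ?_
    · -- the first factor
      show g * eich QA p₀ a' = eich QA p₀ a' * g
      obtain ⟨b, hb⟩ := exists_eich_param T.ndA S.a3 hp0 hp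
      obtain ⟨σ₀, hσ₀⟩ := hb a ha
      obtain ⟨σ, hσ⟩ := hb a' ha'
      have hσ0 : σ₀ ≠ 0 := fun h0 => eich_ne_one T.two hp0 hp ha T.ndA hQa (by
        rw [hσ₀, h0, zero_smul, eich_zero])
      have hgfix : (u : A ≃ₗ[F] A) ((g : A ≃ₗ[F] A) p₀) = (g : A ≃ₗ[F] A) p₀ := by
        rw [← orth_mul_apply, ← hgu, orth_mul_apply, hu, eich_apply_self hp ha]
      obtain ⟨lam, hlam⟩ := Submodule.mem_span_singleton.1
        (mem_span_of_eich_fixed T.ndA T.two hLA hp0 hp ha hQa (by rw [orth_map, hp]) hgfix)
      have hga : polar QA p₀ ((g : A ≃ₗ[F] A) a) = 0 := by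
        have h1 := orth_polar g p₀ a
        rw [← hlam, ha, polar_smul_left, smul_eq_mul] at h1
        exact (mul_eq_zero.1 h1).resolve_left fun h0 => hp0 ((g : A ≃ₗ[F] A).injective (by
          rw [← hlam, h0, zero_smul, map_zero]))
      have hua : eich QA p₀ (lam • (g : A ≃ₗ[F] A) a) = u := by
        rw [← eich_smul_smul hp hga, hlam, hu, ← eich_conj, ← hu, hgu, mul_inv_cancel_right]
      set τ := σ * σ₀⁻¹ with hτ
      have hba : ∀ x, polar QA p₀ x = 0 → eich QA p₀ x = u →
          eich QA p₀ (τ • x) = eich QA p₀ (τ • a) :=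
        fun x hx hxu => eich_scale T.ndA T.two hLA hp0 hp hx ha hxu τ
      have ha'' : eich QA p₀ a' = eich QA p₀ (τ • a) := by
        by_cases hb0 : polar QA p₀ b = 0
        · rw [hσ]
          have := eich_scale T.ndA T.two hLA hp0 hp ha (by rw [polar_smul_right, hb0, smul_zero]) hσ₀ τ
          rw [this, smul_smul, hτ, mul_assoc, inv_mul_cancel₀ hσ0, mul_one]
        · exfalso
          apply eich_ne_one T.two hp0 hp ha T.ndA hQa
          rw [hσ₀]
          exact eich_eq_one_of_not fun h => hb0 (by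
            have h2 := h.2
            rw [polar_smul_right, smul_eq_mul] at h2
            exact (mul_eq_zero.1 h2).resolve_left hσ0)
      have hlg : polar QA p₀ (lam • (g : A ≃ₗ[F] A) a) = 0 := by rw [polar_smul_right, hga, smul_zero]
      rw [ha'', eq_comm, ← eq_mul_inv_iff_mul_eq, eich_conj, ← hlam, map_smul,
        eich_smul_smul hp (by rw [polar_smul_right, hga, smul_zero]), smul_comm, hba _ hlg hua]
    · -- the second factor
      show k * eich QB e η' = eich QB e η' * k
      obtain ⟨f, hf⟩ := exists_hypPair (Q := QB) T.ndB he0 he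
      have hkfix : (r : B ≃ₗ[F] B) ((k : B ≃ₗ[F] B) e) = (k : B ≃ₗ[F] B) e := by
        rw [← orth_mul_apply, ← hkr, orth_mul_apply, hr, eich_apply_self he hη]
      obtain ⟨lam, hlam⟩ := Submodule.mem_span_singleton.1
        (mem_span_of_eich_fixed T.ndB T.two S.aniso he0 he hη hQη (by rw [orth_map, he]) hkfix)
      have hlam0 : lam ≠ 0 := fun h0 => he0 ((k : B ≃ₗ[F] B).injective (by
        rw [← hlam, h0, zero_smul, map_zero]))
      have hperp : ∀ x, polar QB e x = 0 → polar QB e ((k : B ≃ₗ[F] B) x) = 0 := fun x hx => by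
        have h1 := orth_polar k e x
        rw [← hlam, hx, polar_smul_left, smul_eq_mul] at h1
        exact (mul_eq_zero.1 h1).resolve_left hlam0
      have hconj : ∀ x, polar QB e x = 0 →
          k * eich QB e x * k⁻¹ = eich QB e (lam • (k : B ≃ₗ[F] B) x) := fun x hx => by
        rw [eich_conj, ← hlam, eich_smul_smul he (hperp x hx)]
      -- the fixed class
      have hηe : ∃ c : F, lam • (k : B ≃ₗ[F] B) η = η + c • e := by
        have h1 := hconj η hη
        rw [← hr, hkr, mul_inv_cancel_right] at h1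
        have hd : polar QB e (lam • (k : B ≃ₗ[F] B) η - η) = 0 := by
          rw [polar_sub_right, polar_smul_right, hperp η hη, smul_zero, hη, sub_zero]
        have h0 : QB (lam • (k : B ≃ₗ[F] B) η - η) = 0 := by
          by_contra hne
          refine eich_ne_one T.two he0 he hd T.ndB hne ?_
          rw [sub_eq_add_neg, ← eich_mul he (by rw [polar_smul_right, hperp η hη, smul_zero])
            (by rw [polar_neg_right, hη, neg_zero]), ← eich_inv he hη, ← h1, hr, mul_inv_cancel]
        obtain ⟨c, hc⟩ := Submodule.mem_span_singleton.1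
          (mem_span_of_perp_singular T.ndB S.aniso he0 he hd h0)
        exact ⟨c, by rw [hc]; abel⟩
      obtain ⟨c, hc⟩ := hηe
      have hlam2 : lam * lam = 1 := by
        have h1 := congrArg QB hc
        rw [QuadraticMap.map_smul, orth_map, map_add_smul, he, polar_comm (⇑QB) η e, hη,
          smul_eq_mul] at h1
        simp only [mul_zero, add_zero] at h1
        exact mul_right_cancel₀ hQη (by rw [one_mul]; linear_combination h1)
      -- up to sign `k` is a root element
      have hone : ∀ k₂ : orth QB, dick k₂ = 1 → (k₂ : B ≃ₗ[F] B) e = e →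
          (∃ d : F, (k₂ : B ≃ₗ[F] B) η = η + d • e) → ∃ x, polar QB e x = 0 ∧ k₂ = eich QB e x := by
        rintro k₂ hd₂ he₂ ⟨d, hd⟩
        have hh' : HypPair QB e ((k₂ : B ≃ₗ[F] B) f) :=
          ⟨he, by rw [orth_map, hf.right], by rw [← hf.pair, ← orth_polar k₂ e f, he₂]⟩
        obtain ⟨x, hx, hxf⟩ := exists_eich_map hf hh'
        obtain ⟨hex, -⟩ := mem_pperp.1 hx
        refine ⟨x, hex, ?_⟩
        have hne : polar QB e (-x) = 0 := by rw [polar_neg_right, hex, neg_zero]
        set k₃ := (eich QB e x)⁻¹ * k₂ with hk₃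
        have h3e : (k₃ : B ≃ₗ[F] B) e = e := by
          rw [hk₃, orth_mul_apply, he₂, eich_inv he hex, eich_apply_self he hne]
        have h3f : (k₃ : B ≃ₗ[F] B) f = f := by rw [hk₃, orth_mul_apply, ← hxf, orth_inv_apply_apply]
        set η₁ := η - polar QB f η • e with hη₁
        have hη₁m : η₁ ∈ pperp QB e f := by
          have := hf.decomp η
          rwa [hη, zero_smul, sub_zero] at this
        have h3η : (k₃ : B ≃ₗ[F] B) η₁ = η₁ := by
          obtain ⟨z, hz⟩ : ∃ z : F, (k₃ : B ≃ₗ[F] B) η₁ = η₁ + z • e := by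
            refine ⟨d + polar QB x η, ?_⟩
            rw [hη₁, map_sub, map_smul, h3e, hk₃, orth_mul_apply, hd, map_add, map_smul, eich_inv he hex,
              eich_apply_self he hne, eich_apply he hne, hη, zero_smul, polar_neg_left, mul_zero, zero_smul]
            module
          have h2 := orth_polar k₃ η₁ f
          rw [hz, h3f, polar_add_left, polar_smul_left, hf.pair] at h2
          rw [hz, show z = 0 by simpa using h2, zero_smul, add_zero]
        have hli : LinearIndependent F ![e, f, η₁] := by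
          rw [Fintype.linearIndependent_iff]
          intro g hg
          simp only [Fin.sum_univ_three, Matrix.cons_val_zero, Matrix.cons_val_one, Matrix.cons_val_two,
            Matrix.head_cons, Matrix.tail_cons] at hg
          obtain ⟨he1, hf1⟩ := mem_pperp.1 hη₁m
          have hQ1 : QB η₁ ≠ 0 := by
            rw [hη₁, map_sub_smul, he, polar_comm (⇑QB) η e, hη]
            simpa using hQη
          have e1 := congrArg (polar QB f) hg
          have e2 := congrArg (polar QB e) hg
          have e3 := congrArg (polar QB η₁) hg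
          simp only [polar_add_right, polar_smul_right, polar_zero_right, polar_self', he, hf.right, hf.pair,
            polar_comm (⇑QB) f e, he1, hf1, polar_comm (⇑QB) η₁ e, polar_comm (⇑QB) η₁ f, smul_eq_mul,
            mul_zero, mul_one, add_zero, zero_add] at e1 e2 e3
          intro i
          fin_cases i
          · exact e1
          · exact e2
          · exact (mul_eq_zero.1 e3).resolve_right (mul_ne_zero T.two hQ1)
        have hle : Submodule.span F (Set.range ![e, f, η₁]) ≤ fixer k₃ := by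
          refine Submodule.span_le.2 ?_
          rintro _ ⟨i, rfl⟩
          fin_cases i
          · exact mem_fixer.2 h3e
          · exact mem_fixer.2 h3f
          · exact mem_fixer.2 h3η
        have h4 := Submodule.finrank_mono hle
        rw [finrank_span_eq_card hli, Fintype.card_fin] at h4
        have hd3 : dick k₃ = 1 := by
          rw [hk₃, dick_mul_odd T.ndB T.two, eich_inv he hex,
            dick_omega T.ndB T.two (eich_mem_omega T.ndB T.two _ _), hd₂, one_mul]
        obtain ⟨i, hi⟩ := even_rk hd3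
        have h5 := rk_add_finrank_fixer k₃
        rw [S.b4] at h5
        have h6 : k₃ = 1 := eq_one_of_rk_eq_zero (by omega)
        exact (inv_mul_eq_one.1 h6).symm
      rcases mul_self_eq_one_iff.1 hlam2 with hl | hl
      · obtain ⟨x, hx, rfl⟩ := hone k (dick_omega T.ndB T.two hk) (by rw [← hlam, hl, one_smul])
          ⟨c, by rw [hl, one_smul] at hc; exact hc⟩
        exact (eich_comm he hx hη')
      · have hd : dick (negOne QB * k) = 1 := by
          rw [dick_mul_odd T.ndB T.two, dick_omega T.ndB T.two hk, dick, rk_negOne T.two, S.b4]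
          decide
        obtain ⟨x, hx, hxk⟩ := hone (negOne QB * k) hd
          (by rw [orth_mul_apply, ← hlam, hl, negOne_apply, neg_one_smul, neg_neg])
          ⟨c, by rw [hl, neg_one_smul] at hc; rw [orth_mul_apply, negOne_apply]; exact hc⟩
        have hk' : k = negOne QB * eich QB e x := by
          rw [← hxk, ← mul_assoc, negOne_mul_self, one_mul]
        rw [hk', mul_assoc, eich_comm he hx hη', ← mul_assoc, (negOne_comm _).eq, mul_assoc]
  obtain ⟨P, hP⟩ := exists_sylow_eq hUX hUp hn
  refine le_of_burnside hP hUX hUPG hc' hWU (Small.rootB_not_cyclic T S he0 he) (fun w hw hw1 y hy hwy => ?_)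
    (show m ∈ X from ⟨hm, Subgroup.mem_centralizer_iff.2 (by rintro _ rfl; exact hc.symm)⟩)
  obtain ⟨η', hη', rfl⟩ := hw
  have hQη' : QB η' ≠ 0 := fun h0 => hw1 (by
    rw [eich_eq_one_of_singular T.ndB S.aniso he0 he hη' h0, map_one])
  refine Small.pure_B T S he0 he hη' hQη' he0 he hη' hy.1 ?_
  rw [← hwy, mul_inv_cancel_right]

end TO

end Cfsg.Agent.H19.OrthTensor
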