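import Cfsg.Agent.H19.OrthTensor.Small.Std
import Cfsg.Agent.H5.OmegaSimple
import Cfsg.Agent.H5.Pairs

/-!
With trivial layers and standard middle parts, an element mapping a layer to a layer is a pure tensor.
-/

set_option autoImplicit false
set_option linter.unusedSectionVars false

namespace Cfsg.Agent.H19.OrthTensor

open QuadraticMap hiding sq
open Cfsg.Agent.H5 Module

variable {F V A B : Type*} [Field F] [Finite F] [AddCommGroup V] [Module F V] [Finite V]
  [FiniteDimensional F V] [AddCommGroup A] [Module F A] [Finite A] [FiniteDimensional F A]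
  [AddCommGroup B] [Module F B] [Finite B] [FiniteDimensional F B]
  {Q : QuadraticForm F V} {QA : QuadraticForm F A} {QB : QuadraticForm F B}
  {pu : A →ₗ[F] B →ₗ[F] V}

/-- An operator commuting with all root elements is a scalar. -/
theorem scalar_of_eich_comm (h2 : (2 : F) ≠ 0) (hQ : (polarBilin QA).Nondegenerate)
    (hA : 3 ≤ finrank F A) (X : Module.End F A)
    (hX : ∀ p a, QA p = 0 → polar QA p a = 0 → ∀ x,
      X ((eich QA p a : A ≃ₗ[F] A) x) = (eich QA p a : A ≃ₗ[F] A) (X x)) :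
    ∃ c : F, ∀ x, X x = c • x := by
  have hline : ∀ p f, HypPair QA p f → ∃ c : F, X p = c • p := fun p f hpf => by
    have := mem_span_of_centralize hQ hA hpf (x := X p) fun a ha => by
      rw [← hX p a hpf.left ha, eich_apply_self hpf.left ha]
    obtain ⟨c, hc⟩ := Submodule.mem_span_singleton.1 this
    exact ⟨c, hc.symm⟩
  obtain ⟨p, hp0, hp⟩ := H5.exists_singular (Q := QA) hQ hA
  obtain ⟨f, hpf⟩ := exists_hypPair (Q := QA) hQ hp0 hp
  obtain ⟨cp, hcp⟩ := hline p f hpf
  obtain ⟨cf, hcf⟩ := hline f p hpf.symm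
  have key : ∀ a ∈ pperp QA p f, QA a ≠ 0 → X a = cp • a ∧ cf = cp := by
    intro a ha hQa
    obtain ⟨hpa, hfa⟩ := mem_pperp.1 ha
    have h1 := hX p a hp hpa f
    rw [eich_apply hp hpa, hpf.pair, polar_comm (⇑QA) a f, hfa, hcf, map_smul, eich_apply hp hpa,
      hpf.pair, polar_comm (⇑QA) a f, hfa] at h1
    simp only [one_smul, zero_smul, sub_zero, mul_one, map_sub, map_add, map_smul, hcf, hcp] at h1
    have h2' := hX p (-a) hp (by rw [polar_neg_right, hpa, neg_zero]) f
    rw [eich_apply hp (by rw [polar_neg_right, hpa, neg_zero]), hpf.pair, polar_neg_left,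
      polar_comm (⇑QA) a f, hfa, hcf, map_smul, eich_apply hp (by rw [polar_neg_right, hpa, neg_zero]),
      hpf.pair, polar_neg_left, polar_comm (⇑QA) a f, hfa, QuadraticMap.map_neg] at h2'
    simp only [one_smul, zero_smul, sub_zero, mul_one, map_sub, map_add, map_smul, map_neg, neg_zero,
      hcf, hcp] at h2'
    have e1 : X a = cf • a + (cp * QA a - cf * QA a) • p := by
      linear_combination (norm := module) h1
    have e2 : -X a = -(cf • a) + (cp * QA a - cf * QA a) • p := by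
      linear_combination (norm := module) h2'
    have e3 : (2 * (QA a * (cp - cf))) • p = (0 : A) := by
      linear_combination (norm := module) -e1 - e2
    have hp0' : cp = cf := by
      have := (smul_eq_zero.1 e3).resolve_right hp0
      simpa [h2, hQa, sub_eq_zero] using this
    refine ⟨?_, hp0'.symm⟩
    rw [e1, hp0', sub_self, zero_smul, add_zero]
  obtain ⟨a₀, ha₀, hQa₀⟩ := exists_anisotropic (hpf.inf_perp hQ)
    (by have := hpf.finrank_pperp hQ; omega)
  refine ⟨cp, fun x => ?_⟩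
  have hw := hpf.decomp x
  set w := x - polar QA f x • p - polar QA p x • f
  have hXw : X w = cp • w := by
    by_cases hQw : QA w = 0
    swap
    · exact (key w hw hQw).1
    by_cases hQs : QA (w + a₀) = 0
    · have h3 : QA (w - a₀) ≠ 0 := by
        intro h0
        rw [H5.map_sub', hQw] at h0
        rw [QuadraticMap.map_add (⇑QA), hQw] at hQs
        have : 2 * QA a₀ = 0 := by linear_combination h0 + hQs
        exact hQa₀ ((mul_eq_zero.1 this).resolve_left h2)
      have h4 := (key _ (sub_mem hw ha₀) h3).1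
      rw [map_sub, (key a₀ ha₀ hQa₀).1, smul_sub] at h4
      exact sub_left_inj.1 h4
    · have h4 := (key _ (add_mem hw ha₀) hQs).1
      rw [map_add, (key a₀ ha₀ hQa₀).1, smul_add] at h4
      exact add_right_cancel h4
  have hx : x = w + polar QA f x • p + polar QA p x • f := by
    simp only [w]; abel
  rw [hx, map_add, map_add, hXw, map_smul, map_smul, hcp, hcf, (key a₀ ha₀ hQa₀).2]
  simp only [smul_add, smul_smul, mul_comm]

/-- A square scales inside `Ω`. -/
theorem pairScale_sq_mem (h2 : (2 : F) ≠ 0) (hQ : (polarBilin QA).Nondegenerate) {p f : A}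
    (h : HypPair QA p f) {t : F} (ht : t ≠ 0) : pairScale QA p f (t * t) ∈ commutator (orth QA) :=
  (mem_commutator_iff hQ (Or.inl (card_ne_two h2))).2
    ⟨dick_pairScale hQ h (mul_ne_zero ht ht), by rw [spin_pairScale h (mul_ne_zero ht ht), sqc_of_sq]⟩

namespace TO

variable (T : TO Q QA QB pu)
include T

/-- A unipotent element fixing a layer is in the radical. -/
theorem exists_el {e h : B} (hh : HypPair QB e h) {m : orth Q}
    (hfix : ∀ x, (m : V ≃ₗ[F] V) (pu x e) = pu x e)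
    (hζ : ∀ ζ, polar QB e ζ = 0 → ∀ x, (m : V ≃ₗ[F] V) (pu x ζ) - pu x ζ =
      pu (T.C h ((m : V ≃ₗ[F] V) (pu x ζ) - pu x ζ)) e) :
    ∃ K K' G, T.El e K K' G m := by
  have hhe : polar QB h e = 1 := by rw [polar_comm]; exact hh.pair
  have he := hh.left
  let G : A →ₗ[F] A := (T.C h).comp (((m : V ≃ₗ[F] V) : V →ₗ[F] V).comp (pu.flip h))
  let K : A →ₗ[F] V := ((m : V ≃ₗ[F] V) : V →ₗ[F] V).comp (pu.flip h) - pu.flip h - (pu.flip e).comp G
  let mi : V →ₗ[F] V := (((m⁻¹ : orth Q) : V ≃ₗ[F] V) : V →ₗ[F] V)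
  let K' : V →ₗ[F] A := (T.C h).comp mi - T.C h - (T.C h).comp (mi.comp ((pu.flip h).comp (T.C e)))
  have hadj : ∀ v x, polar QA (K' v) x = polar Q v (K x) := by
    intro v x
    simp only [K', K, G, mi, LinearMap.sub_apply, LinearMap.comp_apply, LinearEquiv.coe_coe,
      LinearMap.flip_apply, polar_sub_left, polar_sub_right, T.adj]
    rw [← orth_polar m, orth_apply_inv_apply, ← orth_polar m (((m⁻¹ : orth Q) : V ≃ₗ[F] V) _),
      orth_apply_inv_apply, polar_comm (⇑Q) (pu _ h), ← T.adj h ((m : V ≃ₗ[F] V) (pu x h)),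
      ← T.adj e v, polar_comm (⇑QA) (T.C h _)]
  have hCe : ∀ x, T.C e ((m : V ≃ₗ[F] V) (pu x h)) = x := fun x => T.extA fun y => by
    rw [T.adj]
    conv_lhs => rw [← hfix y]
    rw [orth_polar, T.form, hhe, mul_one]
  have hperp : ∀ x, T.C e (K x) = 0 := fun x => by
    simp only [K, G, LinearMap.sub_apply, LinearMap.comp_apply, LinearEquiv.coe_coe,
      LinearMap.flip_apply, map_sub, hCe, T.C_pu, hhe, polar_self', he, mul_zero, zero_smul, one_smul]
    abel
  have hK'h : ∀ x, K' (pu x h) = 0 := fun x => T.extA fun y => by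
    rw [hadj, polar_comm, ← T.adj]
    simp only [K, G, LinearMap.sub_apply, LinearMap.comp_apply, LinearEquiv.coe_coe,
      LinearMap.flip_apply, map_sub, T.C_pu, hh.pair, polar_self', hh.right, mul_zero, zero_smul,
      one_smul, sub_zero, sub_self, polar_zero_left]
  have hK'ζ : ∀ ζ, polar QB e ζ = 0 → ∀ x,
      K' (pu x ζ) = -T.C h ((m : V ≃ₗ[F] V) (pu x ζ) - pu x ζ) := by
    intro ζ hζ' x
    set D := T.C h ((m : V ≃ₗ[F] V) (pu x ζ) - pu x ζ) with hD
    have hm' : ((m⁻¹ : orth Q) : V ≃ₗ[F] V) (pu x ζ) = pu x ζ - pu D e := by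
      refine (m : V ≃ₗ[F] V).injective ?_
      rw [orth_apply_inv_apply, map_sub, hfix, hD, ← hζ ζ hζ' x]
      abel
    simp only [K', mi, LinearMap.sub_apply, LinearMap.comp_apply, LinearEquiv.coe_coe,
      LinearMap.flip_apply]
    rw [hm', T.C_pu e x ζ, polar_comm, hζ']
    simp [map_sub, T.C_pu, hh.pair]
  have hel : T.El e K K' G m := by
    refine ⟨hadj, hperp, fun v => ?_⟩
    have key := T.ext_pu (f := ((m : V ≃ₗ[F] V) : V →ₗ[F] V))
      (g := LinearMap.id + K.comp (T.C e) - (pu.flip e).comp K' + (pu.flip e).comp (G.comp (T.C e)))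
      fun x u => by
        obtain ⟨ζ, hζ', hu⟩ : ∃ ζ, polar QB e ζ = 0 ∧ u = ζ + polar QB e u • h :=
          ⟨u - polar QB e u • h, by rw [polar_sub_right, polar_smul_right, hh.pair, smul_eq_mul, mul_one,
            sub_self], by abel⟩
        generalize polar QB e u = β at hu
        subst hu
        simp only [LinearEquiv.coe_coe, LinearMap.add_apply, LinearMap.sub_apply, LinearMap.id_apply,
          LinearMap.comp_apply, LinearMap.flip_apply, map_add, map_smul, hK'h, hK'ζ ζ hζ', T.C_pu,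
          polar_comm (⇑QB) ζ e, hζ', hhe, zero_smul, one_smul, zero_add, smul_zero, add_zero, map_neg,
          LinearMap.neg_apply, map_zero]
        rw [← hζ ζ hζ' x]
        simp only [K, G, LinearMap.sub_apply, LinearMap.comp_apply, LinearEquiv.coe_coe,
          LinearMap.flip_apply]
        module
    simpa using LinearMap.congr_fun key v
  exact ⟨K, K', G, hel⟩

variable {M : Subgroup (orth Q)} (H : T.Over M)
include H

/-- An element of `M` in the radical is a root element of the second factor. -/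
theorem el_eq_kR (hgood : T.NoLayer M) (hstd : T.Std M) (hA : 3 ≤ finrank F A) {e : B} (he : QB e = 0)
    (he0 : e ≠ 0) {m : orth Q} (hm : m ∈ M) {K : A →ₗ[F] V} {K' : V →ₗ[F] A} {G : A →ₗ[F] A}
    (hel : T.El e K K' G m) : ∃ η, polar QB e η = 0 ∧ m = T.kR (eich QB e η) := by
  obtain ⟨h, hh⟩ := exists_hypPair (Q := QB) T.ndB he0 he
  obtain ⟨x₀, hx₀⟩ : ∃ x : A, x ≠ 0 := by
    have : Nontrivial A := Module.nontrivial_of_finrank_pos (R := F) (by omega)
    exact exists_ne 0
  obtain ⟨y₀, hy₀⟩ := exists_polar_eq_one (Q := QA) T.ndA hx₀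
  set η := T.C' y₀ (K x₀) with hη
  have hηζ : ∀ ζ, polar QB η ζ = polar QA (T.C ζ (K x₀)) y₀ := fun ζ => by
    rw [hη, T.adj', T.adj]
  have hηe : polar QB e η = 0 := by rw [polar_comm, hηζ, hel.perp, polar_zero_left]
  refine ⟨η, hηe, ?_⟩
  have hKζ : ∀ ζ, polar QB e ζ = 0 → ∀ x, T.C ζ (K x) = polar QB η ζ • x := by
    intro ζ hζ x
    obtain ⟨c, hc⟩ := hstd e he he0 K ⟨K', G, m, hm, hel⟩ ζ hζ
    rw [hηζ, hc, hc, polar_smul_left, hy₀, smul_eq_mul, mul_one]
  let W : A →ₗ[F] A := (T.C h).comp (K - pu.flip η)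
  have hK : ∀ x, K x = pu x η + pu (W x) e := by
    intro x
    refine eq_add_of_sub_eq' (T.eq_pu_of_C hh.pair fun ζ hζ => ?_)
    rw [map_sub, hKζ ζ hζ, T.C_pu, sub_self]
  let G₂ : A →ₗ[F] A := (K' - T.C η).comp (pu.flip h)
  have hK' : ∀ v, K' v = T.C η v + G₂ (T.C e v) := by
    intro v
    refine T.extA fun x => ?_
    simp only [G₂, LinearMap.comp_apply, LinearMap.sub_apply, LinearMap.flip_apply, polar_add_left,
      polar_sub_left, hel.adj, hK, polar_add_right, T.adj, T.form, polar_comm (⇑QB) h e, hh.pair]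
    rw [← T.adj e v]
    ring
  have hr : eich QB e η ∈ commutator (orth QB) := eich_mem_omega T.ndB T.two e η
  have hlay : T.IsLayer e (W - G₂ + G + QB η • LinearMap.id) (m * (T.kR (eich QB e η))⁻¹) := by
    intro v
    obtain ⟨u, rfl⟩ := (T.kR (eich QB e η) : V ≃ₗ[F] V).surjective v
    have hC : T.C e ((T.kR (eich QB e η) : V ≃ₗ[F] V) u) = T.C e u := by
      have h2 := T.C_kR (eich QB e η) e u
      rwa [eich_apply_self he hηe] at h2
    rw [orth_mul_apply, orth_inv_apply_apply, hC, hel.act, hK, hK', T.kR_eich_apply he hηe]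
    simp only [LinearMap.add_apply, LinearMap.sub_apply, LinearMap.smul_apply, LinearMap.id_apply,
      map_add, map_sub, map_smul]
    abel
  have h0 := hgood e he0 he _ ⟨_, mul_mem hm (inv_mem (H.right _ hr)), hlay⟩
  have h1 : m * (T.kR (eich QB e η))⁻¹ = 1 := orth_ext fun v => by
    rw [hlay v, h0]
    simp
  exact mul_inv_eq_one.1 h1

/-- An element mapping a layer to a layer is a pure tensor. -/
theorem pure_of_map_layer (hgood : T.NoLayer M) (hstd : T.Std M) (hA : 3 ≤ finrank F A)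
    (hB : 3 ≤ finrank F B) (hq : 5 ≤ Nat.card F) {e e' : B} (he : QB e = 0) (he0 : e ≠ 0) (he'0 : e' ≠ 0)
    {m : orth Q} (hm : m ∈ M) {Tm : A →ₗ[F] A}
    (hTm : ∀ x, (m : V ≃ₗ[F] V) (pu x e) = pu (Tm x) e') : IsPureT pu m := by
  obtain ⟨h, hh⟩ := exists_hypPair (Q := QB) T.ndB he0 he
  have hinj : Function.Injective Tm := by
    refine (injective_iff_map_eq_zero Tm).2 fun x hx => T.pu_eq_zero_left ?_ he0
    apply (m : V ≃ₗ[F] V).injective
    rw [hTm, hx, map_zero, map_zero, LinearMap.zero_apply]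
  have hsur : Function.Surjective Tm := Finite.surjective_of_injective hinj
  have he' : QB e' = 0 := by
    obtain ⟨x, hx⟩ : ∃ x, QA x ≠ 0 := by
      obtain ⟨e₁, he₁0, he₁⟩ := H5.exists_singular (Q := QA) T.ndA hA
      obtain ⟨f₁, hf₁⟩ := exists_hypPair (Q := QA) T.ndA he₁0 he₁
      exact ⟨e₁ + f₁, by rw [QuadraticMap.map_add (⇑QA), he₁, hf₁.right, hf₁.pair]; simp⟩
    obtain ⟨y, rfl⟩ := hsur x
    have h1 := orth_map m (pu y e)
    rw [hTm, T.Q_pu, T.Q_pu, he, mul_zero, mul_zero] at h1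
    simpa [T.two, hx] using h1
  obtain ⟨h', hh'⟩ := exists_hypPair (Q := QB) T.ndB he'0 he'
  have hhe' : polar QB h' e' = 1 := by rw [polar_comm]; exact hh'.pair
  let mi : V →ₗ[F] V := (((m⁻¹ : orth Q) : V ≃ₗ[F] V) : V →ₗ[F] V)
  let Tt : A →ₗ[F] A := (T.C e).comp (mi.comp (pu.flip h'))
  have hTt : ∀ y x, polar QA (Tt y) x = polar QA y (Tm x) := by
    intro y x
    simp only [Tt, mi, LinearMap.comp_apply, LinearEquiv.coe_coe, LinearMap.flip_apply]
    rw [T.adj, ← orth_polar m, orth_apply_inv_apply, hTm, T.form, hhe', mul_one]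
  have hCm : ∀ w, T.C e (((m⁻¹ : orth Q) : V ≃ₗ[F] V) w) = Tt (T.C e' w) := fun w => T.extA fun x => by
    rw [T.adj, ← orth_polar m, orth_apply_inv_apply, hTm, hTt, T.adj]
  have hTt0 : Function.Injective Tt := (injective_iff_map_eq_zero Tt).2 fun y hy => T.extA fun z => by
    obtain ⟨x, rfl⟩ := hsur z
    rw [← hTt, hy, polar_zero_left, polar_zero_left]
  have hTts : Function.Surjective Tt := Finite.surjective_of_injective hTt0
  let L : B → A →ₗ[F] V := fun η => ((m : V ≃ₗ[F] V) : V →ₗ[F] V).comp ((pu.flip η).comp Tt)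
  have hL : ∀ η x, L η x = (m : V ≃ₗ[F] V) (pu (Tt x) η) := fun _ _ => rfl
  have hperp : ∀ η, polar QB e η = 0 → ∀ x, T.C e' (L η x) = 0 := fun η hη x => T.extA fun z => by
    obtain ⟨y, rfl⟩ := hsur z
    rw [T.adj, hL, ← hTm, orth_polar, T.form, polar_comm (⇑QB), hη, mul_zero, polar_zero_left]
  have hmemb : ∀ η, polar QB e η = 0 → T.Memb M e' (L η) := by
    intro η hη
    refine ⟨Tm.comp ((T.C η).comp mi), (-QB η) • Tm.comp Tt, m * T.kR (eich QB e η) * m⁻¹,
      mul_mem (mul_mem hm (H.right _ (eich_mem_omega T.ndB T.two e η))) (inv_mem hm),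
      ⟨fun v x => ?_, hperp η hη, fun v => ?_⟩⟩
    · simp only [mi, LinearMap.comp_apply, LinearEquiv.coe_coe]
      rw [polar_comm, ← hTt, polar_comm, T.adj, ← orth_polar m, orth_apply_inv_apply, hL]
    · rw [orth_mul_apply, orth_mul_apply, T.kR_eich_apply he hη, hCm]
      simp only [map_add, map_sub, map_smul, hTm, orth_apply_inv_apply, hL, mi, LinearMap.comp_apply,
        LinearEquiv.coe_coe, LinearMap.smul_apply, neg_smul, map_neg, LinearMap.neg_apply]
      abel
  obtain ⟨x₀, hx₀⟩ : ∃ x : A, x ≠ 0 := by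
    have : Nontrivial A := Module.nontrivial_of_finrank_pos (R := F) (by omega)
    exact exists_ne 0
  obtain ⟨y₀, hy₀⟩ := exists_polar_eq_one (Q := QA) T.ndA hx₀
  let κ : B →ₗ[F] B :=
    (T.C' y₀).comp (((m : V ≃ₗ[F] V) : V →ₗ[F] V).comp (pu (Tt x₀)))
  have hκ : ∀ η ζ, polar QB (κ η) ζ = polar QA (T.C ζ (L η x₀)) y₀ := fun η ζ => by
    rw [T.adj, hL]
    simp only [κ, LinearMap.comp_apply, LinearEquiv.coe_coe, T.adj']
  have hCζ : ∀ η, polar QB e η = 0 → ∀ ζ, polar QB e' ζ = 0 → ∀ x,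
      T.C ζ (L η x) = polar QB (κ η) ζ • x := by
    intro η hη ζ hζ x
    obtain ⟨c, hc⟩ := hstd e' he' he'0 (L η) (hmemb η hη) ζ hζ
    rw [hκ, hc, hc, polar_smul_left, hy₀, smul_eq_mul, mul_one]
  have hκe : ∀ η, polar QB e η = 0 → polar QB e' (κ η) = 0 := fun η hη => by
    rw [polar_comm, hκ, hperp η hη, polar_zero_left]
  let R : B → A → A := fun η x => T.C h' (L η x - pu x (κ η))
  have hdec : ∀ η, polar QB e η = 0 → ∀ x, L η x = pu x (κ η) + pu (R η x) e' := by
    intro η hη x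
    refine (eq_add_of_sub_eq' (T.eq_pu_of_C hh'.pair fun ζ hζ => ?_))
    rw [map_sub, hCζ η hη ζ hζ, T.C_pu, sub_self]
  have hform : ∀ η, polar QB e η = 0 → ∀ η', polar QB e η' = 0 → ∀ x y,
      polar QA (Tt x) (Tt y) * polar QB η η' = polar QA x y * polar QB (κ η) (κ η') := by
    intro η hη η' hη' x y
    have h1 : polar Q (L η x) (L η' y) = polar QA (Tt x) (Tt y) * polar QB η η' := by
      rw [hL, hL, orth_polar, T.form]
    rw [← h1, hdec η hη x, hdec η' hη' y]
    simp only [polar_add_left, polar_add_right, T.form, polar_self', he', mul_zero, hκe η' hη',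
      polar_comm (⇑QB) (κ η) e', hκe η hη, add_zero]
  obtain ⟨η₀, hη₀, hQη₀⟩ := exists_anisotropic (hh.inf_perp T.ndB)
    (by have := hh.finrank_pperp T.ndB; omega)
  have heη₀ := (mem_pperp.1 hη₀).1
  set μ := QB (κ η₀) / QB η₀ with hμ
  have hsim : ∀ x y, polar QA (Tt x) (Tt y) = μ * polar QA x y := by
    intro x y
    have h1 := hform η₀ heη₀ η₀ heη₀ x y
    rw [polar_self', polar_self'] at h1
    rw [hμ, div_mul_eq_mul_div, eq_div_iff hQη₀]
    refine mul_left_cancel₀ T.two ?_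
    linear_combination h1
  have hμ0 : μ ≠ 0 := fun h0 => hx₀ (by
    refine hTt0 ((T.extA fun z => ?_).trans (map_zero Tt).symm)
    obtain ⟨y, rfl⟩ := hTts z
    rw [hsim, h0, zero_mul, polar_zero_left])
  have hκsim : ∀ η, polar QB e η = 0 → ∀ η', polar QB e η' = 0 →
      polar QB (κ η) (κ η') = μ * polar QB η η' := by
    intro η hη η' hη'
    have h1 := hform η hη η' hη' x₀ y₀
    rw [hsim, hy₀, mul_one, one_mul] at h1
    exact h1.symm
  have hκQ : ∀ η, polar QB e η = 0 → QB (κ η) = μ * QB η := fun η hη => by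
    have h1 := hκsim η hη η hη
    rw [polar_self', polar_self'] at h1
    exact mul_left_cancel₀ T.two (by linear_combination h1)
  have hTm' : ∀ x, Tm (Tt x) = μ • x := fun x => T.extA fun z => by
    rw [polar_comm, ← hTt, hsim, polar_comm, polar_smul_left, smul_eq_mul]
  have hν : ∀ x y, polar QA (Tm x) (Tm y) = μ * polar QA x y := by
    intro x y
    obtain ⟨x, rfl⟩ := hTts x
    obtain ⟨y, rfl⟩ := hTts y
    rw [hTm', hTm', polar_smul_left, polar_smul_right, hsim, smul_eq_mul, smul_eq_mul]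
  have hνQ : ∀ x, QA (Tm x) = μ * QA x := fun x => by
    have h1 := hν x x
    rw [polar_self', polar_self'] at h1
    exact mul_left_cancel₀ T.two (by linear_combination h1)
  let Te : A ≃ₗ[F] A := LinearEquiv.ofBijective Tm ⟨hinj, hsur⟩
  have hTe : ∀ x, Te x = Tm x := fun x => rfl
  have hTeQ : ∀ z, μ * QA (Te.symm z) = QA z := fun z => by
    rw [← hνQ, ← hTe, LinearEquiv.apply_symm_apply]
  let φ : orth QA →* orth QA :=
    { toFun := fun g => ⟨Te.symm.trans ((g : A ≃ₗ[F] A).trans Te), fun z => by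
        show QA (Tm ((g : A ≃ₗ[F] A) (Te.symm z))) = QA z
        rw [hνQ, orth_map, hTeQ]⟩
      map_one' := orth_ext fun z => Te.apply_symm_apply z
      map_mul' := fun g k => orth_ext fun z => by
        show Te (((g * k : orth QA) : A ≃ₗ[F] A) (Te.symm z)) =
          Te ((g : A ≃ₗ[F] A) (Te.symm (Te ((k : A ≃ₗ[F] A) (Te.symm z)))))
        rw [LinearEquiv.symm_apply_apply, orth_mul_apply] }
  have hφ : ∀ g x, ((φ g : orth QA) : A ≃ₗ[F] A) (Tm x) = Tm ((g : A ≃ₗ[F] A) x) := fun g x => by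
    show Te ((g : A ≃ₗ[F] A) (Te.symm (Te x))) = _
    rw [LinearEquiv.symm_apply_apply]; rfl
  have hφΩ : ∀ g ∈ commutator (orth QA), φ g ∈ commutator (orth QA) := fun g hg => by
    have h : (commutator (orth QA)).map φ ≤ commutator (orth QA) := by
      rw [commutator_def, Subgroup.map_commutator]
      exact Subgroup.commutator_mono le_top le_top
    exact h ⟨g, hg, rfl⟩
  -- modulo the radical the element normalises the first factor
  have hrad : ∀ g ∈ commutator (orth QA), ∃ η, polar QB e' η = 0 ∧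
      m * T.kL g * m⁻¹ = T.kL (φ g) * T.kR (eich QB e' η) := by
    intro g hg
    have hkk : ∀ y, (((φ g)⁻¹ : orth QA) : A ≃ₗ[F] A) (Tm ((g : A ≃ₗ[F] A) y)) = Tm y := fun y => by
      rw [← hφ, orth_inv_apply_apply]
    set m₃ := (T.kL (φ g))⁻¹ * (m * T.kL g * m⁻¹) with hm₃
    have hm₃M : m₃ ∈ M := mul_mem (inv_mem (H.left _ (hφΩ g hg)))
      (mul_mem (mul_mem hm (H.left g hg)) (inv_mem hm))
    have hfix : ∀ x, (m₃ : V ≃ₗ[F] V) (pu x e') = pu x e' := by
      intro x
      obtain ⟨y, rfl⟩ := hsur x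
      rw [hm₃, ← map_inv T.kL, orth_mul_apply, orth_mul_apply, orth_mul_apply]
      conv_lhs => rw [← hTm, orth_inv_apply_apply, T.kL_pu, hTm, T.kL_pu, hkk]
    let U : Submodule F V :=
      { carrier := {v | (m₃ : V ≃ₗ[F] V) v - v = pu (T.C h' ((m₃ : V ≃ₗ[F] V) v - v)) e'}
        zero_mem' := by simp
        add_mem' := by
          intro a b ha hb
          simp only [Set.mem_setOf_eq] at ha hb ⊢
          rw [map_add, add_sub_add_comm, map_add, map_add, LinearMap.add_apply, ← ha, ← hb]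
        smul_mem' := by
          intro s a ha
          simp only [Set.mem_setOf_eq] at ha ⊢
          rw [map_smul, ← smul_sub, map_smul, map_smul, LinearMap.smul_apply, ← ha] }
    have hU : ∀ η, polar QB e η = 0 → ∀ y, (m : V ≃ₗ[F] V) (pu y η) ∈ U := by
      intro η hη y
      obtain ⟨x, rfl⟩ := hTts y
      rw [← hL]
      obtain ⟨x', hx'⟩ := hTts ((g : A ≃ₗ[F] A) (Tt x))
      have hgx : x' = (φ g : A ≃ₗ[F] A) x := by
        refine smul_right_injective A hμ0 ?_
        simp only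
        rw [← hTm', hx', ← hφ, hTm', map_smul]
      have h1 : ((m * T.kL g * m⁻¹ : orth Q) : V ≃ₗ[F] V) (L η x) =
          L η ((φ g : A ≃ₗ[F] A) x) := by
        rw [orth_mul_apply, orth_mul_apply, hL, orth_inv_apply_apply, T.kL_pu, hL, ← hgx, hx']
      show (m₃ : V ≃ₗ[F] V) (L η x) - L η x = _
      have h2 : (m₃ : V ≃ₗ[F] V) (L η x) - L η x =
          pu ((((φ g)⁻¹ : orth QA) : A ≃ₗ[F] A) (R η ((φ g : A ≃ₗ[F] A) x)) - R η x) e' := by
        rw [hm₃, ← map_inv T.kL, orth_mul_apply, h1, hdec η hη, map_add, T.kL_pu, T.kL_pu,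
          orth_inv_apply_apply, hdec η hη x]
        simp only [map_sub, LinearMap.sub_apply, R]
        abel
      rw [h2, T.C_pu, hh'.pair, one_smul]
    have hζ : ∀ ζ, polar QB e' ζ = 0 → ∀ x, (m₃ : V ≃ₗ[F] V) (pu x ζ) - pu x ζ =
        pu (T.C h' ((m₃ : V ≃ₗ[F] V) (pu x ζ) - pu x ζ)) e' := by
      intro ζ hζ x
      obtain ⟨w, hw⟩ := (m : V ≃ₗ[F] V).surjective (pu x ζ)
      have hCw : T.C e w = 0 := by
        rw [← orth_inv_apply_apply m w, hw, hCm, T.C_pu, polar_comm, hζ, zero_smul, map_zero]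
      let P : V →ₗ[F] V := LinearMap.id - (pu.flip h).comp (T.C e)
      have hPw : P w = w := by simp [P, hCw]
      have hP : ∀ v, (m : V ≃ₗ[F] V) (P v) ∈ U := by
        intro v
        have : (U.comap (((m : V ≃ₗ[F] V) : V →ₗ[F] V).comp P)) = ⊤ := by
          rw [eq_top_iff, ← T.span_top, Submodule.span_le]
          rintro _ ⟨y, u, rfl⟩
          have hu : polar QB e (u - polar QB e u • h) = 0 := by
            rw [polar_sub_right, polar_smul_right, hh.pair, smul_eq_mul, mul_one, sub_self]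
          have := hU _ hu y
          simpa [P, T.C_pu, polar_comm (⇑QB) u e] using this
        exact this.ge (Submodule.mem_top (x := v))
      have := hP w
      rwa [hPw, hw] at this
    obtain ⟨K, K', G, hel⟩ := T.exists_el hh' hfix hζ
    obtain ⟨η, hη, hm₃η⟩ := T.el_eq_kR H hgood hstd hA he' he'0 hm₃M hel
    refine ⟨η, hη, ?_⟩
    rw [← hm₃η, hm₃, mul_inv_cancel_left]
  have hcentral : ∀ g η, Commute (T.kR (eich QB e' η)) (T.kL g) := fun g η => T.kR_comm _ g
  have heich : ∀ p a, QA p = 0 → polar QA p a = 0 → ∀ y,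
      (m : V ≃ₗ[F] V) ((T.kL (eich QA p a) : V ≃ₗ[F] V) y) =
        (T.kL (φ (eich QA p a)) : V ≃ₗ[F] V) ((m : V ≃ₗ[F] V) y) := by
    intro p a hp hpa
    suffices h : m * T.kL (eich QA p a) * m⁻¹ = T.kL (φ (eich QA p a)) by
      intro y
      rw [← h, orth_mul_apply, orth_mul_apply, orth_inv_apply_apply]
    by_cases hp0 : p = 0
    · have : eich QA p a = 1 := orth_ext fun x => by
        rw [eich_apply hp hpa, hp0, polar_zero_left]; simp
      rw [this]; simp
    obtain ⟨f, hpf⟩ := exists_hypPair (Q := QA) T.ndA hp0 hp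
    have ha' : a - polar QA f a • p ∈ pperp QA p f := by
      rw [mem_pperp, polar_sub_right, polar_sub_right, polar_smul_right, polar_smul_right, polar_self',
        hp, hpa, polar_comm (⇑QA) f p, hpf.pair]
      simp
    obtain ⟨t, ht0, ht1⟩ : ∃ t : F, t ≠ 0 ∧ t * t ≠ 1 := by
      classical
      haveI := Fintype.ofFinite F
      by_contra! hall
      have hsub : (Finset.univ : Finset F) ⊆ {0, 1, -1} := by
        intro t _
        by_cases ht : t = 0
        · simp [ht]
        · rcases mul_self_eq_one_iff.1 (hall t ht) with h | h <;> simp [h]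
      have := (Finset.card_le_card hsub).trans Finset.card_le_three
      rw [Finset.card_univ, ← Nat.card_eq_fintype_card] at this
      omega
    set d := pairScale QA p f (t * t) with hd
    set b := (t * t - 1)⁻¹ • (a - polar QA f a • p) with hb
    have hbm : b ∈ pperp QA p f := Submodule.smul_mem _ _ ha'
    obtain ⟨hpb, hfb⟩ := mem_pperp.1 hbm
    have hdp : (d : A ≃ₗ[F] A) p = (t * t) • p := by
      rw [hd, hpf.pairScale_apply (mul_ne_zero ht0 ht0), polar_comm (⇑QA) f p, hpf.pair, polar_self', hp]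
      simp
    have hdb : (d : A ≃ₗ[F] A) b = b := by
      rw [hd, hpf.pairScale_apply (mul_ne_zero ht0 ht0), hpb, hfb]
      simp
    have hab : eich QA p a = d * eich QA p b * d⁻¹ * (eich QA p b)⁻¹ := by
      rw [eich_conj, hdp, hdb, eich_smul_smul hp hpb, eich_inv hp hpb,
        eich_mul hp (by rw [polar_smul_right, hpb, smul_zero]) (by rw [polar_neg_right, hpb, neg_zero]),
        show (t * t) • b + -b = (t * t - 1) • b by module, hb, smul_smul,
        mul_inv_cancel₀ (sub_ne_zero.2 ht1), one_smul]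
      conv_lhs => rw [← sub_add_cancel a (polar QA f a • p)]
      exact eich_add_smul hp (mem_pperp.1 ha').1 _
    obtain ⟨η₁, hη₁, e₁⟩ := hrad d (pairScale_sq_mem T.two T.ndA hpf ht0)
    obtain ⟨η₂, hη₂, e₂⟩ := hrad (eich QA p b) (eich_mem_omega T.ndA T.two p b)
    have hrr : Commute (T.kR (eich QB e' η₁)) (T.kR (eich QB e' η₂)) := by
      show _ * _ = _ * _
      rw [← map_mul, ← map_mul, eich_mul he' hη₁ hη₂, eich_mul he' hη₂ hη₁, add_comm]
    have key : ∀ (c l₁ l₂ r₁ r₂ : orth Q), Commute r₁ l₁ → Commute r₁ l₂ → Commute r₂ l₁ → Commute r₂ l₂ →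
        Commute r₁ r₂ → c = (l₁ * r₁) * (l₂ * r₂) * (l₁ * r₁)⁻¹ * (l₂ * r₂)⁻¹ →
        c = l₁ * l₂ * l₁⁻¹ * l₂⁻¹ := by
      intro c l₁ l₂ r₁ r₂ h11 h12 h21 h22 h hc
      rw [hc]
      calc _ = l₁ * (r₁ * l₂) * (r₂ * r₁⁻¹) * l₁⁻¹ * (r₂⁻¹ * l₂⁻¹) := by group
        _ = l₁ * (l₂ * r₁) * (r₁⁻¹ * r₂) * l₁⁻¹ * (r₂⁻¹ * l₂⁻¹) := by
          rw [h12.eq, h.inv_left.symm.eq]
        _ = l₁ * l₂ * (r₂ * l₁⁻¹) * r₂⁻¹ * l₂⁻¹ := by group
        _ = l₁ * l₂ * (l₁⁻¹ * r₂) * r₂⁻¹ * l₂⁻¹ := by rw [h21.inv_right.eq]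
        _ = _ := by group
    rw [hab, map_mul φ, map_mul φ, map_mul φ, map_inv φ, map_inv φ]
    simp only [map_mul T.kL, map_inv T.kL]
    refine key _ _ _ _ _ (hcentral _ η₁) (hcentral _ η₁) (hcentral _ η₂) (hcentral _ η₂) hrr ?_
    rw [← e₁, ← e₂]
    group
  obtain ⟨y₁, hy₁⟩ := exists_polar_eq_one (Q := QA) T.ndA (x := Tm x₀)
    (fun h0 => hx₀ (hinj (by rw [h0, map_zero])))
  refine ⟨Tm, (T.C' y₁).comp (((m : V ≃ₗ[F] V) : V →ₗ[F] V).comp (pu x₀)), fun x u => ?_⟩
  rw [← sub_eq_zero]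
  refine T.eq_zero_of_C fun ζ => ?_
  let X : Module.End F A := (Te.symm : A →ₗ[F] A).comp
    ((T.C ζ).comp (((m : V ≃ₗ[F] V) : V →ₗ[F] V).comp (pu.flip u)))
  have hXT : ∀ y, Tm (X y) = T.C ζ ((m : V ≃ₗ[F] V) (pu y u)) := fun y => Te.apply_symm_apply _
  obtain ⟨c, hc⟩ := scalar_of_eich_comm T.two T.ndA hA X fun p a hp hpa y => hinj (by
    rw [hXT, ← hφ, hXT, ← T.C_kL, ← heich p a hp hpa, T.kL_pu])
  have hCx : ∀ y, T.C ζ ((m : V ≃ₗ[F] V) (pu y u)) = c • Tm y := fun y => by
    rw [← hXT, hc, map_smul]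
  have h1 : polar QB ((T.C' y₁) ((m : V ≃ₗ[F] V) (pu x₀ u))) ζ = c := by
    rw [T.adj', ← T.adj, hCx, polar_smul_left, hy₁, smul_eq_mul, mul_one]
  simp only [LinearMap.comp_apply, LinearEquiv.coe_coe, map_sub, T.C_pu, hCx]
  rw [h1, sub_self]

/-- An element conjugating a root element of the second factor to one is pure. -/
theorem pure_of_conj (hgood : T.NoLayer M) (hstd : T.Std M) (hA : 3 ≤ finrank F A)
    (hB : 3 ≤ finrank F B) (hq : 5 ≤ Nat.card F) {e η e' η' : B} (he : QB e = 0) (he0 : e ≠ 0)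
    (hη : polar QB e η = 0) (hQη : QB η ≠ 0) (he' : QB e' = 0) (he'0 : e' ≠ 0)
    (hη' : polar QB e' η' = 0) {m : orth Q} (hm : m ∈ M)
    (hc : m * T.kR (eich QB e η) * m⁻¹ = T.kR (eich QB e' η')) : IsPureT pu m := by
  obtain ⟨h, hh⟩ := exists_hypPair (Q := QB) T.ndB he0 he
  have sq : ∀ (e η : B), QB e = 0 → polar QB e η = 0 → ∀ v,
      (T.kR (eich QB e η) : V ≃ₗ[F] V) ((T.kR (eich QB e η) : V ≃ₗ[F] V) v) -
        (2 : F) • (T.kR (eich QB e η) : V ≃ₗ[F] V) v + v = -(2 * QB η) • pu (T.C e v) e := by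
    intro e η he hη v
    rw [← orth_mul_apply, ← map_mul, eich_mul he hη hη, T.kR_eich_apply he hη,
      T.kR_eich_apply he (by rw [polar_add_right, hη, add_zero]), QuadraticMap.map_add (⇑QB),
      polar_self', map_add, map_add, LinearMap.add_apply, map_add, LinearMap.add_apply]
    module
  have hr : ∀ v, (m : V ≃ₗ[F] V) ((T.kR (eich QB e η) : V ≃ₗ[F] V) v) =
      (T.kR (eich QB e' η') : V ≃ₗ[F] V) ((m : V ≃ₗ[F] V) v) := fun v => by
    rw [← hc, orth_mul_apply, orth_mul_apply, orth_inv_apply_apply]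
  let Tm : A →ₗ[F] A := (QB η' / QB η) •
    (T.C e').comp (((m : V ≃ₗ[F] V) : V →ₗ[F] V).comp (pu.flip h))
  refine T.pure_of_map_layer H hgood hstd hA hB hq he he0 he'0 hm (Tm := Tm) fun x => ?_
  have h1 := congrArg (m : V ≃ₗ[F] V) (sq e η he hη (pu x h))
  rw [map_add, map_sub, map_smul, hr, hr, map_smul, sq e' η' he' hη', T.C_pu,
    polar_comm (⇑QB) h e, hh.pair, one_smul] at h1
  refine smul_right_injective V (neg_ne_zero.2 (mul_ne_zero T.two hQη)) ?_
  simp only
  rw [← h1]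
  simp only [Tm, LinearMap.smul_apply, LinearMap.comp_apply, LinearEquiv.coe_coe, LinearMap.flip_apply,
    map_smul, smul_smul]
  congr 1
  field_simp

end TO

end Cfsg.Agent.H19.OrthTensor
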