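import Cfsg.Agent.H19.OrthTensor.Small.Decomp
import Cfsg.Agent.H5.Transitive

/-!
The standing hypotheses for `O₃ ⊗ O₄⁻` and the first consequences.
-/

set_option autoImplicit false
set_option linter.unusedSectionVars false

namespace Cfsg.Agent.H19.OrthTensor

open QuadraticMap hiding sq
open Cfsg.Agent.H5 Module

variable {F V A B : Type*} [Field F] [Finite F] [AddCommGroup V] [Module F V] [Finite V]
  [FiniteDimensional F V] [AddCommGroup A] [Module F A] [Finite A] [FiniteDimensional F A]
  [AddCommGroup B] [Module F B] [Finite B] [FiniteDimensional F B]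
  {Q : QuadraticForm F V} {QA : QuadraticForm F A} {QB : QuadraticForm F B}
  {pu : A →ₗ[F] B →ₗ[F] V}

namespace TO

variable (T : TO Q QA QB pu)
include T

/-- The standing hypotheses. -/
structure Small (M : Subgroup (orth Q)) : Prop where
  a3 : finrank F A = 3
  b4 : finrank F B = 4
  aniso : LineAniso QB
  q5 : 5 ≤ Nat.card F
  hOver : T.Over M
  tv : ∀ v, QA v ≠ 0 → T.kL (tvec QA v) ∈ M
  hOmega : M ≤ commutator (orth Q)
  good : T.NoLayer M
  good' : T.swap.NoLayer M

/-- The pure isometries. -/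
def PG : Subgroup (orth Q) := T.pr.range

theorem pr_mem (g : orth QA) (k : orth QB) : T.pr (g, k) ∈ T.PG := ⟨(g, k), rfl⟩

theorem kL_mem_PG (g : orth QA) : T.kL g ∈ T.PG := ⟨(g, 1), by rw [T.pr_apply, map_one, mul_one]⟩

theorem kR_mem_PG (k : orth QB) : T.kR k ∈ T.PG := ⟨(1, k), by rw [T.pr_apply, map_one, one_mul]⟩

theorem isPureT_of_mem {m : orth Q} (h : m ∈ T.PG) : IsPureT pu m := by
  obtain ⟨⟨g, k⟩, rfl⟩ := h
  exact ⟨((g : A ≃ₗ[F] A) : A →ₗ[F] A), ((k : B ≃ₗ[F] B) : B →ₗ[F] B), T.pr_pu g k⟩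

/-- For an odd-dimensional first factor pure isometries are products of isometries. -/
theorem mem_PG_of_isPureT (hA : finrank F A = 3) (hB : 1 ≤ finrank F B) {m : orth Q}
    (h : IsPureT pu m) : m ∈ T.PG := by
  obtain ⟨G, K, hGK⟩ := h
  have : Nontrivial B := Module.nontrivial_of_finrank_pos (R := F) (by omega)
  obtain ⟨u, hu⟩ : ∃ u, QB u ≠ 0 := by
    by_contra! hall
    obtain ⟨z, hz⟩ := exists_ne (0 : B)
    exact hz (T.ndB.1 z fun y => show polar QB z y = 0 by simp [polar, hall])
  have hQ : ∀ x v, QA (G x) * QB (K v) = QA x * QB v := by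
    intro x v
    have h1 := orth_map m (pu x v)
    rw [hGK, T.Q_pu, T.Q_pu] at h1
    exact mul_left_cancel₀ T.two h1
  obtain ⟨p, hp0, hp⟩ := H5.exists_singular (Q := QA) T.ndA (by omega)
  obtain ⟨f, hpf⟩ := exists_hypPair (Q := QA) T.ndA hp0 hp
  obtain ⟨a, ha, hQa⟩ := exists_anisotropic (hpf.inf_perp T.ndA)
    (by have := hpf.finrank_pperp T.ndA; omega)
  have hKu : QB (K u) ≠ 0 := fun h0 => by
    have := hQ a u
    rw [h0, mul_zero] at this
    exact mul_ne_zero hQa hu this.symm
  set c := QB u / QB (K u) with hc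
  have hc0 : c ≠ 0 := div_ne_zero hu hKu
  have hG : ∀ x, QA (G x) = c * QA x := fun x => by
    have := hQ x u
    rw [hc]
    field_simp
    linear_combination this
  have hGp : ∀ x y, polar QA (G x) (G y) = c * polar QA x y := fun x y => by
    simp only [polar, ← map_add, hG]
    ring
  have hpf' : HypPair QA (G p) (c⁻¹ • G f) :=
    ⟨by rw [hG, hp, mul_zero], by rw [QuadraticMap.map_smul, hG, hpf.right, mul_zero, smul_zero],
      by rw [polar_smul_right, hGp, hpf.pair, mul_one, smul_eq_mul, inv_mul_cancel₀ hc0]⟩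
  have hli : LinearIndependent F ![p, f] := by
    rw [LinearIndependent.pair_iff]
    intro s t hst
    have h1 := congrArg (polar QA f) hst
    have h2 := congrArg (polar QA p) hst
    rw [polar_add_right, polar_smul_right, polar_smul_right, polar_zero_right, polar_self', hpf.right,
      polar_comm (⇑QA) f p, hpf.pair] at h1
    rw [polar_add_right, polar_smul_right, polar_smul_right, polar_zero_right, polar_self', hp,
      hpf.pair] at h2
    simp at h1 h2
    exact ⟨h1, h2⟩
  obtain ⟨w, hw, hwQ⟩ : ∃ w ∈ pperp QA (G p) (c⁻¹ • G f), QA w = QA a := by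
    set bs := Basis.span hli
    let φ : (Submodule.span F (Set.range ![p, f])) →ₗ[F] A := bs.constr F ![G p, c⁻¹ • G f]
    have hφb : ∀ i, φ (bs i) = ![G p, c⁻¹ • G f] i := fun i => bs.constr_basis F _ i
    have hbs : ∀ i, (bs i : A) = ![p, f] i := fun i => congrArg Subtype.val (Basis.span_apply hli i)
    have hφ : ∀ x : Submodule.span F (Set.range ![p, f]), ∃ s t : F, (x : A) = s • p + t • f ∧ φ x = s • G p + t • (c⁻¹ • G f) := by
      intro x
      obtain ⟨s, t, hst⟩ : ∃ s t : F, s • p + t • f = (x : A) := by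
        have key : ∀ y : A, y ∈ Submodule.span F (Set.range ![p, f]) →
            ∃ s t : F, s • p + t • f = y := by
          intro y hy
          rw [Matrix.range_cons, Matrix.range_cons, Matrix.range_empty, Set.union_empty,
            Set.singleton_union, Submodule.mem_span_pair] at hy
          exact hy
        exact key _ x.2
      have hx : x = s • bs 0 + t • bs 1 := Subtype.ext (by
        rw [Submodule.coe_add, Submodule.coe_smul, Submodule.coe_smul, hbs, hbs]
        exact hst.symm)
      refine ⟨s, t, hst.symm, ?_⟩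
      rw [hx, map_add, map_smul, map_smul, hφb, hφb]
      rfl
    obtain ⟨g, hg⟩ := exists_orth_extension T.ndA _ φ (fun x y hxy => by
        obtain ⟨s, t, hx, hφx⟩ := hφ (x - y)
        rw [map_sub, hxy, sub_self] at hφx
        have h1 := congrArg (polar QA (G p)) hφx
        have h2 := congrArg (polar QA (c⁻¹ • G f)) hφx
        rw [polar_zero_right, polar_add_right, polar_smul_right, polar_smul_right, polar_self', hpf'.left,
          hpf'.pair] at h1
        rw [polar_zero_right, polar_add_right, polar_smul_right, polar_smul_right,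
          polar_comm (⇑QA) _ (G p), hpf'.pair, polar_self', hpf'.right] at h2
        simp at h1 h2
        rw [← h1, ← h2, zero_smul, zero_smul, add_zero] at hx
        exact sub_eq_zero.1 (Subtype.ext hx)) fun x => by
      obtain ⟨s, t, hx, hφx⟩ := hφ x
      rw [hφx, hx, map_smul_add_smul, map_smul_add_smul, hpf'.left, hpf'.right, hpf'.pair, hp, hpf.right,
        hpf.pair]
    refine ⟨(g : A ≃ₗ[F] A) a, mem_pperp.2 ⟨?_, ?_⟩, orth_map g a⟩
    · have := hg (bs 0)
      rw [hbs, hφb] at this
      rw [show G p = (g : A ≃ₗ[F] A) p from this.symm, orth_polar]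
      exact (mem_pperp.1 ha).1
    · have := hg (bs 1)
      rw [hbs, hφb] at this
      rw [show c⁻¹ • G f = (g : A ≃ₗ[F] A) f from this.symm, orth_polar]
      exact (mem_pperp.1 ha).2
  have hd : finrank F (pperp QA (G p) (c⁻¹ • G f)) = 1 := by
    have := hpf'.finrank_pperp T.ndA; omega
  have hGa : G a ∈ pperp QA (G p) (c⁻¹ • G f) := mem_pperp.2
    ⟨by rw [hGp, (mem_pperp.1 ha).1, mul_zero],
      by rw [polar_smul_left, hGp, (mem_pperp.1 ha).2, mul_zero, smul_zero]⟩
  obtain ⟨s, hs⟩ := (finrank_eq_one_iff_of_nonzero' (⟨w, hw⟩ : pperp QA (G p) (c⁻¹ • G f))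
    (fun h0 => hQa (by
      rw [← hwQ, show w = 0 from congrArg Subtype.val h0, QuadraticMap.map_zero]))).1 hd ⟨G a, hGa⟩
  have hs' : s • w = G a := congrArg Subtype.val hs
  have hsc : s * s = c := by
    have := hG a
    rw [← hs', QuadraticMap.map_smul, hwQ, smul_eq_mul] at this
    exact mul_right_cancel₀ hQa this
  have hs0 : s ≠ 0 := fun h0 => hc0 (by rw [← hsc, h0, mul_zero])
  have hQg : ∀ x, QA ((s⁻¹ • G) x) = QA x := fun x => by
    rw [LinearMap.smul_apply, QuadraticMap.map_smul, hG, smul_eq_mul, ← hsc]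
    field_simp
  have hQk : ∀ v, QB ((s • K) v) = QB v := fun v => by
    have := hQ a v
    rw [hG, ← hsc] at this
    rw [LinearMap.smul_apply, QuadraticMap.map_smul, smul_eq_mul]
    exact mul_left_cancel₀ hQa (by linear_combination this)
  have hGinj : Function.Injective (s⁻¹ • G) := by
    refine (injective_iff_map_eq_zero _).2 fun x hx => T.ndA.1 x fun y => ?_
    have : polar QA ((s⁻¹ • G) x) ((s⁻¹ • G) y) = polar QA x y := by
      simp only [polar, ← map_add, hQg]
    rw [polarBilin_apply_apply, ← this, hx, polar_zero_left]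
  have hKinj : Function.Injective (s • K) := by
    refine (injective_iff_map_eq_zero _).2 fun x hx => T.ndB.1 x fun y => ?_
    have : polar QB ((s • K) x) ((s • K) y) = polar QB x y := by
      simp only [polar, ← map_add, hQk]
    rw [polarBilin_apply_apply, ← this, hx, polar_zero_left]
  refine ⟨(⟨LinearEquiv.ofBijective _ ⟨hGinj, Finite.surjective_of_injective hGinj⟩, hQg⟩,
    ⟨LinearEquiv.ofBijective _ ⟨hKinj, Finite.surjective_of_injective hKinj⟩, hQk⟩),
    T.orth_ext_pu fun x v => ?_⟩
  rw [T.pr_pu, hGK]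
  show pu ((s⁻¹ • G) x) ((s • K) v) = pu (G x) (K v)
  simp only [LinearMap.smul_apply, map_smul, smul_smul, mul_inv_cancel₀ hs0, one_smul]

variable {M : Subgroup (orth Q)} (S : T.Small M)
include S

theorem Small.hA : 3 ≤ finrank F A := S.a3.ge

theorem Small.hB : 3 ≤ finrank F B := by rw [S.b4]; omega

theorem Small.std : T.Std M :=
  T.std_of_aniso S.hOver S.good (Small.hA T S) (fun _ => by have := S.q5; omega) S.aniso

theorem Small.std' : T.swap.Std M :=
  T.swap.std_of_aniso (Over.swap T S.hOver) S.good' (Small.hB T S)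
    (fun h => absurd h (by rw [S.b4]; omega)) (lineAniso_three T.ndA S.a3)

theorem Small.mem_PG {m : orth Q} (h : IsPureT pu m) : m ∈ T.PG :=
  T.mem_PG_of_isPureT S.a3 (by rw [S.b4]; omega) h

theorem Small.kL_omega {g : orth QA} (hg : dick g = 1) : T.kL g ∈ commutator (orth Q) := by
  obtain ⟨δ, hδ⟩ := T.swap.sign_kR (by rw [S.b4]; omega)
  obtain ⟨h1, h2⟩ := hδ g
  refine (mem_commutator_iff T.ndV (Or.inl (card_ne_two T.two))).2 ⟨?_, ?_⟩
  · rw [show T.kL g = T.swap.kR g from rfl, h1, hg, one_pow]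
  · rw [show T.kL g = T.swap.kR g from rfl, h2, if_pos hg, one_mul, S.b4]
    rcases Int.units_eq_one_or (spin QA g) with h | h <;> rw [h] <;> decide

theorem Small.of_kR_omega {k : orth QB} (hk : T.kR k ∈ commutator (orth Q)) :
    k ∈ commutator (orth QB) := by
  obtain ⟨δ, hδ⟩ := T.sign_kR (by rw [S.a3]; omega)
  obtain ⟨h1, h2⟩ := hδ k
  obtain ⟨h3, h4⟩ := (mem_commutator_iff T.ndV (Or.inl (card_ne_two T.two))).1 hk
  rw [S.a3] at h1 h2
  have hd : dick k = 1 := by
    rcases Int.units_eq_one_or (dick k) with h | h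
    · exact h
    · rw [h, h3] at h1
      exact absurd h1 (by decide)
  refine (mem_commutator_iff T.ndB (Or.inl (card_ne_two T.two))).2 ⟨hd, ?_⟩
  rcases Int.units_eq_one_or (spin QB k) with h | h
  · exact h
  · rw [hd, if_pos rfl, h, h4] at h2
    exact absurd h2 (by decide)

/-- A pure element of `M` is a rotation times an element of `Ω(B)`. -/
theorem Small.dec {m : orth Q} (hm : m ∈ M) (hp : m ∈ T.PG) :
    ∃ g k, dick g = 1 ∧ k ∈ commutator (orth QB) ∧ m = T.pr (g, k) := by
  obtain ⟨⟨g, k⟩, rfl⟩ := hp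
  obtain ⟨g', k', hg', he⟩ : ∃ g' k', dick g' = 1 ∧ T.pr (g, k) = T.pr (g', k') := by
    rcases Int.units_eq_one_or (dick g) with h | h
    · exact ⟨g, k, h, rfl⟩
    · refine ⟨negOne QA * g, negOne QB * k, ?_, ?_⟩
      · rw [dick_mul_odd T.ndA T.two, h, dick, rk_negOne T.two, S.a3]
        decide
      · rw [show ((negOne QA * g, negOne QB * k) : orth QA × orth QB) =
          (negOne QA, negOne QB) * (g, k) from rfl, map_mul, T.pr_negOne, one_mul]
  refine ⟨g', k', hg', Small.of_kR_omega T S ?_, he⟩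
  have h1 : T.kR k' = (T.kL g')⁻¹ * T.pr (g, k) := by rw [he, T.pr_apply, inv_mul_cancel_left]
  rw [h1]
  exact mul_mem (inv_mem (Small.kL_omega T S hg')) (S.hOmega hm)

theorem Small.pr_inj {g g' : orth QA} {k k' : orth QB} (hg : dick g = 1) (hg' : dick g' = 1)
    (h : T.pr (g, k) = T.pr (g', k')) : g = g' ∧ k = k' :=
  T.pr_inj S.a3 (by rw [S.b4]; omega) hg hg' h

/-- Conjugating a root element of the second factor to one forces purity. -/
theorem Small.pure_B {e η e' η' : B} (he0 : e ≠ 0) (he : QB e = 0) (hη : polar QB e η = 0)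
    (hQη : QB η ≠ 0) (he'0 : e' ≠ 0) (he' : QB e' = 0) (hη' : polar QB e' η' = 0) {m : orth Q}
    (hm : m ∈ M) (hc : m * T.kR (eich QB e η) * m⁻¹ = T.kR (eich QB e' η')) : m ∈ T.PG :=
  Small.mem_PG T S (T.pure_of_conj S.hOver S.good (Small.std T S) (Small.hA T S) (Small.hB T S) S.q5
    he he0 hη hQη he' he'0 hη' hm hc)

/-- An element mapping the layer of a singular vector of the first factor to one is pure. -/
theorem Small.pure_layer_A {e e' : A} (he0 : e ≠ 0) (he : QA e = 0) (he'0 : e' ≠ 0) {m : orth Q}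
    (hm : m ∈ M) {Tm : B →ₗ[F] B} (h : ∀ u, (m : V ≃ₗ[F] V) (pu e u) = pu e' (Tm u)) : m ∈ T.PG := by
  obtain ⟨G, K, hGK⟩ := T.swap.pure_of_map_layer (Over.swap T S.hOver) S.good' (Small.std' T S)
    (Small.hB T S) (Small.hA T S) S.q5 he he0 he'0 hm (Tm := Tm) h
  exact Small.mem_PG T S ⟨K, G, fun x u => hGK u x⟩

end TO

end Cfsg.Agent.H19.OrthTensor
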