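import Cfsg.Agent.H19.OrthTensor.Layer

/-!
With trivial layers and an anisotropic quotient `e⊥/e`, middle parts of unipotent elements come from
the second factor.
-/

set_option autoImplicit false
set_option linter.unusedSectionVars false

namespace Cfsg.Agent.H19.OrthTensor

open QuadraticMap hiding sq
open Cfsg.Agent.H5 Module

variable {F V A B : Type*} [Field F] [Finite F] [AddCommGroup V] [Module F V] [Finite V]
  [FiniteDimensional F V] [AddCommGroup A] [Module F A] [Finite A] [FiniteDimensional F A]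
  [AddCommGroup B] [Module F B] [Finite B] [FiniteDimensional F B]
  {Q : QuadraticForm F V} {QA : QuadraticForm F A} {QB : QuadraticForm F B}
  {pu : A →ₗ[F] B →ₗ[F] V}

/-- Root groups of a pair lie in `Ω`. -/
theorem pairGroup_le_omega (hQ : (polarBilin QA).Nondegenerate) (h2 : (2 : F) ≠ 0) (p f : A) :
    pairGroup QA p f ≤ commutator (orth QA) := by
  refine (Subgroup.closure_le _).2 ?_
  rintro _ (⟨a, -, rfl⟩ | ⟨a, -, rfl⟩) <;> exact eich_mem_omega hQ h2 _ a

/-- A fixed point modulo an invariant subspace of a commuting family of nilpotent maps. -/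
theorem exists_fixed_mod {Z ι : Type*} [AddCommGroup Z] [Module F Z] [Finite ι] (D : ι → Module.End F Z)
    (hnil : ∀ i, ∃ N, D i ^ N = 0) (hcomm : ∀ i j, Commute (D i) (D j)) (S W : Submodule F Z)
    (hS : ∀ i, ∀ z ∈ S, D i z ∈ S) (hW : ∀ i, ∀ z ∈ W, D i z ∈ W) {X : Z} (hX : X ∈ W) (hXS : X ∉ S) :
    ∃ Y ∈ W, Y ∉ S ∧ ∀ i, D i Y ∈ S := by
  classical
  haveI : Fintype ι := Fintype.ofFinite ι
  suffices h : ∀ s : Finset ι, ∃ Y ∈ W, Y ∉ S ∧ ∀ i ∈ s, D i Y ∈ S by
    obtain ⟨Y, hY, hYS, hh⟩ := h Finset.univ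
    exact ⟨Y, hY, hYS, fun i => hh i (Finset.mem_univ i)⟩
  intro s
  induction s using Finset.induction with
  | empty => exact ⟨X, hX, hXS, fun i hi => absurd hi (Finset.notMem_empty i)⟩
  | insert j s _ ih =>
    obtain ⟨Y, hY, hYS, hh⟩ := ih
    obtain ⟨N, hN⟩ := hnil j
    obtain ⟨n, hn1, hn2⟩ := exists_last_iterate (D j) hN S hYS
    have hpow : ∀ U : Submodule F Z, (∀ z ∈ U, D j z ∈ U) → ∀ k, ∀ z ∈ U, (D j ^ k) z ∈ U := by
      intro U hU k z hz
      induction k with
      | zero => exact hz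
      | succ k ih => rw [pow_succ', Module.End.mul_apply]; exact hU _ ih
    refine ⟨(D j ^ n) Y, hpow W (hW j) n Y hY, hn1, fun i hi => ?_⟩
    rcases Finset.mem_insert.1 hi with rfl | hi
    · exact hn2
    · rw [← Module.End.mul_apply, ((hcomm i j).pow_right n).eq, Module.End.mul_apply]
      exact hpow S (hS j) n _ (hh i hi)

namespace TO

variable (T : TO Q QA QB pu)
include T

/-- Middle parts of unipotent elements come from the second factor. -/
def Std (M : Subgroup (orth Q)) : Prop :=
  ∀ e : B, QB e = 0 → e ≠ 0 → ∀ X : A →ₗ[F] V, T.Memb M e X → ∀ η, polar QB e η = 0 →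
    ∃ c : F, ∀ x, T.C η (X x) = c • x

/-- Conjugation of middle parts by the first factor. -/
def sigma (g : orth QA) : Module.End F (A →ₗ[F] V) where
  toFun X := ((T.kL g : V ≃ₗ[F] V) : V →ₗ[F] V).comp
    (X.comp (((g⁻¹ : orth QA) : A ≃ₗ[F] A) : A →ₗ[F] A))
  map_add' X Y := by rw [LinearMap.add_comp, LinearMap.comp_add]
  map_smul' c X := by rw [LinearMap.smul_comp, LinearMap.comp_smul]; rfl

theorem sigma_apply (g : orth QA) (X : A →ₗ[F] V) (x : A) :
    T.sigma g X ((g : A ≃ₗ[F] A) x) = (T.kL g : V ≃ₗ[F] V) (X x) := by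
  simp [sigma]

theorem sigma_mul (g k : orth QA) : T.sigma (g * k) = T.sigma g * T.sigma k :=
  LinearMap.ext fun X => LinearMap.ext fun x => by
    simp [sigma, orth_mul_apply]

theorem sigma_one : T.sigma (1 : orth QA) = 1 :=
  LinearMap.ext fun X => LinearMap.ext fun x => by simp [sigma]

theorem C_sigma (g : orth QA) (X : A →ₗ[F] V) (ζ : B) :
    (T.C ζ).comp (T.sigma g X) = cj g ((T.C ζ).comp X) := LinearMap.ext fun x => by
  obtain ⟨y, rfl⟩ := (g : A ≃ₗ[F] A).surjective x
  rw [LinearMap.comp_apply, T.sigma_apply, T.C_kL, cj_apply]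
  rfl

variable {M : Subgroup (orth Q)} (H : T.Over M)
include H

/-- With trivial layers and anisotropic `e⊥/e` the middle parts are standard. -/
theorem std_of_aniso (hgood : T.NoLayer M) (hA : 3 ≤ finrank F A)
    (hq : finrank F A = 3 → Nat.card F ≠ 3)
    (hB : ∀ e h x : B, HypPair QB e h → x ∈ pperp QB e h → QB x = 0 → x = 0) : T.Std M := by
  intro e he he0 X hX η hη
  classical
  obtain ⟨h, hh⟩ := exists_hypPair (Q := QB) T.ndB he0 he
  -- an orthogonal basis of the complement
  obtain ⟨n, p, hp, hpm, hpW⟩ : ∃ (n : ℕ) (p : Fin n → B), OFam QB p ∧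
      (∀ i, p i ∈ pperp QB e h) ∧ pperp QB e h ≤ Submodule.span F (Set.range p) := by
    suffices key : ∀ n, ∃ (m : ℕ) (p : Fin m → B), OFam QB p ∧ (∀ i, p i ∈ pperp QB e h) ∧
        (pperp QB e h ≤ Submodule.span F (Set.range p) ∨ n ≤ m) by
      obtain ⟨m, p, hp, hpm, hor⟩ := key (finrank F B + 1)
      refine ⟨m, p, hp, hpm, hor.resolve_right fun hle => ?_⟩
      have := hp.le_finrank T.two
      omega
    intro n
    induction n with
    | zero => exact ⟨0, Fin.elim0, oFam_empty, fun i => i.elim0, Or.inr le_rfl⟩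
    | succ n ih =>
      obtain ⟨m, p, hp, hpm, hor⟩ := ih
      by_cases hle : pperp QB e h ≤ Submodule.span F (Set.range p)
      · exact ⟨m, p, hp, hpm, Or.inl hle⟩
      obtain ⟨z, hz, hzs⟩ := SetLike.not_le_iff_exists.1 hle
      set z' := z - ∑ i, (polar QB (p i) z / (2 * QB (p i))) • p i with hz'
      have hz'm : z' ∈ pperp QB e h :=
        sub_mem hz (Submodule.sum_mem _ fun i _ => Submodule.smul_mem _ _ (hpm i))
      have hz'p : ∀ i, polar QB (p i) z' = 0 := by
        intro i
        rw [hz', polar_sub_right, ← polarBilin_apply_apply QB (p i) (∑ _, _), map_sum,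
          Finset.sum_eq_single i]
        · rw [map_smul, polarBilin_apply_apply, polar_self', smul_eq_mul,
            div_mul_cancel₀ _ (mul_ne_zero T.two (hp.ne i)), sub_self]
        · intro j _ hj
          rw [map_smul, polarBilin_apply_apply, hp.orth i j hj.symm, smul_zero]
        · simp
      have hz'0 : QB z' ≠ 0 := fun h0 => hzs (by
        have := hB e h z' hh hz'm h0
        rw [hz', sub_eq_zero] at this
        rw [this]
        exact Submodule.sum_mem _ fun i _ => Submodule.smul_mem _ _ (Submodule.subset_span ⟨i, rfl⟩))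
      refine ⟨m + 1, Fin.snoc p z', hp.snoc hz'0 hz'p, fun i => ?_,
        Or.inr (by have := hor.resolve_left hle; omega)⟩
      refine Fin.lastCases ?_ (fun j => ?_) i
      · rw [Fin.snoc_last]; exact hz'm
      · rw [Fin.snoc_castSucc]; exact hpm j
  have hpe : ∀ i, polar QB e (p i) = 0 ∧ polar QB h (p i) = 0 := fun i => mem_pperp.1 (hpm i)
  set S := Submodule.span F {Y : A →ₗ[F] V | T.Memb M e Y} with hSdef
  have hrel : ∀ Y ∈ S, ∀ Z ∈ S, Rel Q Y Z := by
    intro Y hY Z hZ
    induction hY, hZ using Submodule.span_induction₂ with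
    | mem_mem Y Z hY hZ => exact T.rel_of_memb hgood he he0 hY hZ
    | zero_left => exact fun x y => by simp
    | zero_right => exact fun x y => by simp
    | add_left _ _ _ _ _ _ h1 h2 => exact fun x y => by simp [polar_add_left, h1 x y, h2 x y]
    | add_right _ _ _ _ _ _ h1 h2 => exact fun x y => by simp [polar_add_right, h1 x y, h2 x y]
    | smul_left _ _ _ _ _ h => exact fun x y => by simp [polar_smul_left, h x y]
    | smul_right _ _ _ _ _ h => exact fun x y => by simp [polar_smul_right, h x y]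
  have hSσ : ∀ g ∈ commutator (orth QA), ∀ Y ∈ S, T.sigma g Y ∈ S := by
    intro g hg Y hY
    induction hY using Submodule.span_induction with
    | mem Y hY => exact Submodule.subset_span (T.memb_kL H hY hg)
    | zero => rw [map_zero]; exact S.zero_mem
    | add a b _ _ ha hb => rw [map_add]; exact S.add_mem ha hb
    | smul c a _ ha => rw [map_smul]; exact S.smul_mem c ha
  have hCe : ∀ Y ∈ S, ∀ x, T.C e (Y x) = 0 := by
    intro Y hY x
    induction hY using Submodule.span_induction with
    | mem Y hY => obtain ⟨_, _, _, _, hel⟩ := hY; exact hel.perp x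
    | zero => simp
    | add a b _ _ ha hb => simp [ha, hb]
    | smul c a _ ha => simp [ha]
  have hsym : ∀ Y ∈ S, ∀ ζ, polar QB e ζ = 0 → ∀ x y,
      polar QA (T.C ζ (Y x)) y = polar QA x (T.C ζ (Y y)) := by
    intro Y hY ζ hζ x y
    have := hrel Y hY _ (Submodule.subset_span (T.memb_root H he hζ)) x y
    rw [LinearMap.flip_apply, LinearMap.flip_apply, ← T.adj, ← T.adj] at this
    rw [this, polar_comm]
  -- the form in coordinates
  have hvec : ∀ v, T.C e v = 0 →
      v = pu (T.C h v) e + ∑ i, (2 * QB (p i))⁻¹ • pu (T.C (p i) v) (p i) := by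
    intro v hv
    rw [← sub_eq_zero]
    refine T.eq_zero_of_C fun z => ?_
    set D := v - (pu (T.C h v) e + ∑ i, (2 * QB (p i))⁻¹ • pu (T.C (p i) v) (p i)) with hD
    let W : Submodule F B :=
      { carrier := {z | T.C z D = 0}
        zero_mem' := by simp
        add_mem' := fun {a b} ha hb => by
          simp only [Set.mem_setOf_eq] at ha hb ⊢
          rw [map_add, LinearMap.add_apply, ha, hb, add_zero]
        smul_mem' := fun c {a} ha => by
          simp only [Set.mem_setOf_eq] at ha ⊢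
          rw [map_smul, LinearMap.smul_apply, ha, smul_zero] }
    have hWe : e ∈ W := by
      show T.C e D = 0
      simp [hD, map_sum, hv, T.C_pu, polar_self', he, hpe, polar_comm (⇑QB) _ e]
    have hWh : h ∈ W := by
      show T.C h D = 0
      simp [hD, map_sum, T.C_pu, hh.pair, hpe, polar_comm (⇑QB) _ h]
    have hWp : ∀ j, p j ∈ W := by
      intro j
      show T.C (p j) D = 0
      rw [hD, map_sub, map_add, map_sum, T.C_pu, (hpe j).1, zero_smul, zero_add,
        Finset.sum_eq_single j]
      · rw [map_smul, T.C_pu, polar_self', smul_smul,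
          inv_mul_cancel₀ (mul_ne_zero T.two (hp.ne j)), one_smul, sub_self]
      · intro i _ hi
        rw [map_smul, T.C_pu, hp.orth i j hi, zero_smul, smul_zero]
      · simp
    have hle : pperp QB e h ≤ W := hpW.trans (Submodule.span_le.2 (by rintro _ ⟨j, rfl⟩; exact hWp j))
    have := W.add_mem (W.add_mem (hle (hh.decomp z)) (W.smul_mem (polar QB h z) hWe))
      (W.smul_mem (polar QB e z) hWh)
    rwa [show z - polar QB h z • e - polar QB e z • h + polar QB h z • e + polar QB e z • h = z by abel] at this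
  have hform : ∀ Y ∈ S, ∀ Z ∈ S, ∀ x y, polar Q (Y x) (Z y) =
      ∑ i, (2 * QB (p i))⁻¹ * polar QA (T.C (p i) (Y x)) (T.C (p i) (Z y)) := by
    intro Y hY Z hZ x y
    conv_lhs => rw [hvec _ (hCe Y hY x)]
    rw [polar_add_left, polar_comm (⇑Q) _ (Z y), ← T.adj, polar_comm (⇑Q) _ (Z y),
      ← polarBilin_apply_apply Q (Z y) (∑ _, _), map_sum,
      hCe Z hZ y, polar_zero_left, zero_add]
    refine Finset.sum_congr rfl fun i _ => ?_
    rw [map_smul, polarBilin_apply_apply, ← T.adj, smul_eq_mul, polar_comm (⇑QA)]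
  -- elements with scalar components
  let Sd : Submodule F (A →ₗ[F] V) :=
    { carrier := {Y | ∀ i, ∃ c : F, (T.C (p i)).comp Y = c • (1 : Module.End F A)}
      zero_mem' := fun i => ⟨0, by simp⟩
      add_mem' := fun {a b} ha hb i => by
        obtain ⟨c, hc⟩ := ha i
        obtain ⟨d, hd⟩ := hb i
        exact ⟨c + d, by rw [LinearMap.comp_add, hc, hd, add_smul]⟩
      smul_mem' := fun s {a} ha i => by
        obtain ⟨c, hc⟩ := ha i
        exact ⟨s * c, by rw [LinearMap.comp_smul, hc, smul_smul]⟩ }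
  suffices hall : X ∈ Sd by
    let W : Submodule F B :=
      { carrier := {ζ | ∃ c : F, ∀ x, T.C ζ (X x) = c • x}
        zero_mem' := ⟨0, fun x => by simp⟩
        add_mem' := by
          rintro a b ⟨c, hc⟩ ⟨d, hd⟩
          exact ⟨c + d, fun x => by rw [map_add, LinearMap.add_apply, hc, hd, add_smul]⟩
        smul_mem' := by
          rintro s a ⟨c, hc⟩
          exact ⟨s * c, fun x => by rw [map_smul, LinearMap.smul_apply, hc, smul_smul]⟩ }
    have heW : e ∈ W := ⟨0, fun x => by rw [hCe X (Submodule.subset_span hX), zero_smul]⟩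
    have hle : pperp QB e h ≤ W := by
      refine hpW.trans (Submodule.span_le.2 ?_)
      rintro _ ⟨j, rfl⟩
      obtain ⟨c, hc⟩ := hall j
      exact ⟨c, fun x => LinearMap.congr_fun hc x⟩
    have := W.add_mem (hle (hh.decomp η)) (W.smul_mem (polar QB h η) heW)
    rwa [hη, zero_smul, sub_zero, sub_add_cancel] at this
  by_contra hns
  obtain ⟨a, hna0, hna⟩ := H5.exists_singular (Q := QA) T.ndA hA
  obtain ⟨f, hpf⟩ := exists_hypPair (Q := QA) T.ndA hna0 hna
  obtain ⟨ℓ, hℓ⟩ := CharP.exists F
  have : Fact ℓ.Prime := ⟨(CharP.char_is_prime_or_zero F ℓ).resolve_right fun h0 => by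
    subst h0; exact CharP.char_ne_zero_of_finite F 0 rfl⟩
  have : Nontrivial (A →ₗ[F] V) := nontrivial_of_ne X 0 fun h0 => hns (h0 ▸ Sd.zero_mem)
  have : CharP (Module.End F (A →ₗ[F] V)) ℓ :=
    charP_of_injective_algebraMap (algebraMap F (Module.End F (A →ₗ[F] V))).injective ℓ
  let ι := {b : A // polar QA a b = 0}
  let D : ι → Module.End F (A →ₗ[F] V) := fun b => T.sigma (eich QA a b) - 1
  have hnil : ∀ i, ∃ N, D i ^ N = 0 := by
    intro b
    refine ⟨ℓ, ?_⟩
    have hpow : ∀ k : ℕ, T.sigma (eich QA a (b : A)) ^ k = T.sigma (eich QA a ((k : F) • (b : A))) := by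
      intro k
      induction k with
      | zero => rw [pow_zero, Nat.cast_zero, zero_smul, eich_zero, T.sigma_one]
      | succ k ih =>
        rw [pow_succ, ih, ← T.sigma_mul, eich_mul hna (by rw [polar_smul_right, b.2, smul_zero]) b.2,
          Nat.cast_succ, add_smul, one_smul]
    change (T.sigma (eich QA a (b : A)) - 1) ^ ℓ = 0
    rw [sub_pow_char_of_commute ℓ (Commute.one_right _), one_pow, hpow, CharP.cast_eq_zero, zero_smul,
      eich_zero, T.sigma_one, sub_self]
  have hcomm : ∀ i j, Commute (D i) (D j) := by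
    intro b c
    have : Commute (T.sigma (eich QA a (b : A))) (T.sigma (eich QA a (c : A))) := by
      change _ * _ = _ * _
      rw [← T.sigma_mul, ← T.sigma_mul, eich_mul hna b.2 c.2, eich_mul hna c.2 b.2, add_comm]
    exact (this.sub_left (Commute.one_left _)).sub_right (Commute.one_right _)
  have hDS : ∀ i, ∀ Y ∈ Sd, D i Y ∈ Sd := by
    intro b Y hY
    refine Sd.sub_mem (fun i => ?_) hY
    obtain ⟨c, hc⟩ := hY i
    exact ⟨c, by rw [T.C_sigma, hc, map_smul, cj_one_apply]⟩
  have hDW : ∀ i, ∀ Y ∈ S, D i Y ∈ S := fun b Y hY =>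
    S.sub_mem (hSσ _ (eich_mem_omega T.ndA T.two a b) Y hY) hY
  obtain ⟨Y, hY, hYS, hfix⟩ := exists_fixed_mod D hnil hcomm Sd S hDS hDW
    (Submodule.subset_span hX) hns
  have hsh : ∀ i, ∃ μ d : F, ∀ x, T.C (p i) (Y x) = μ • x + (d * polar QA a x) • a := by
    intro i
    refine fixed_form T.two T.ndA hA hq hpf ((T.C (p i)).comp Y) (hsym Y hY _ (hpe i).1)
      fun b hb => ?_
    obtain ⟨c, hc⟩ := hfix ⟨b, hb⟩ i
    refine ⟨c, ?_⟩
    rw [← hc]
    simp only [D, LinearMap.sub_apply, Module.End.one_apply, LinearMap.comp_sub, T.C_sigma]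
  choose μ d hd using hsh
  obtain ⟨i₀, hi₀⟩ : ∃ i, d i ≠ 0 := by
    by_contra! hall
    refine hYS fun i => ⟨μ i, LinearMap.ext fun x => ?_⟩
    rw [LinearMap.comp_apply, hd, hall i, zero_mul, zero_smul, add_zero]
    rfl
  obtain ⟨g, hg, t, ht, hga⟩ := exists_pairGroup_map T.ndA hA hpf.symm hna0 hna
  have hgΩ := pairGroup_le_omega T.ndA T.two _ _ hg
  have hdg : ∀ i x, T.C (p i) (T.sigma g Y x) = μ i • x + (d i * (t * t) * polar QA f x) • f := by
    intro i x
    obtain ⟨y, rfl⟩ := (g : A ≃ₗ[F] A).surjective x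
    rw [T.sigma_apply, T.C_kL, hd, map_add, map_smul, map_smul, hga, ← orth_polar g a y, hga,
      polar_smul_left, smul_smul]
    congr 2
    rw [smul_eq_mul]
    ring
  have heq := hrel Y hY _ (hSσ g hgΩ Y hY) a f
  rw [hform Y hY _ (hSσ g hgΩ Y hY), hform Y hY _ (hSσ g hgΩ Y hY)] at heq
  simp only [hd, hdg, polar_add_left, polar_add_right, polar_smul_left, polar_smul_right, polar_self',
    hna, hpf.right, polar_comm (⇑QA) f a, hpf.pair, mul_zero, smul_eq_mul, mul_one,
    add_zero, zero_mul] at heq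
  -- the anisotropic vector with these coordinates
  have hsum : ∑ i, (2 * QB (p i))⁻¹ * (d i * d i) = 0 := by
    refine mul_left_cancel₀ (mul_ne_zero ht ht) ?_
    rw [mul_zero, Finset.mul_sum]
    rw [← sub_eq_zero, ← Finset.sum_sub_distrib] at heq
    rw [← neg_eq_zero, ← Finset.sum_neg_distrib, ← heq]
    refine Finset.sum_congr rfl fun i _ => ?_
    ring
  set v := ∑ i, (d i / (2 * QB (p i))) • p i with hv
  have hv0 : QB v = 0 := by
    refine mul_left_cancel₀ T.two ?_
    rw [mul_zero, ← polar_self', ← polarBilin_apply_apply, hv, map_sum, ← hsum]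
    refine Finset.sum_congr rfl fun i _ => ?_
    rw [map_smul, map_sum, LinearMap.sum_apply, Finset.sum_eq_single i]
    · rw [map_smul, LinearMap.smul_apply, polarBilin_apply_apply, polar_self', smul_eq_mul,
        smul_eq_mul]
      have := mul_ne_zero T.two (hp.ne i)
      field_simp
    · intro j _ hj
      rw [map_smul, LinearMap.smul_apply, polarBilin_apply_apply, hp.orth j i hj]
      simp
    · simp
  have hv00 := hB e h v hh (Submodule.sum_mem _ fun i _ => Submodule.smul_mem _ _ (hpm i)) hv0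
  have hc := hp.coeff_zero T.two (fun i => d i / (2 * QB (p i)))
    (fun i => by rw [← hv, hv00, polar_zero_right]) i₀
  exact div_ne_zero hi₀ (mul_ne_zero T.two (hp.ne i₀)) hc

end TO

end Cfsg.Agent.H19.OrthTensor
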